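/-
Steinberg's theorem on the automorphisms of the Chevalley groups: the individual types.
-/
import Cfsg.Agent.Lib.Chev.AutThm

set_option autoImplicit false
set_option maxRecDepth 100000

namespace CfsgLib.Chev

open Cfsg.Lie Cfsg.Lie.ChevalleyDatum CfsgLib.BN

section

variable {F : Type*} [Field F] [Finite F]

theorem longSG2 : LongS chevG2 TG2.cert [0, 1, 0, 1, 0, 1] (fun j => [0, 1].getD j 0) := LongS.of_chk (by decide +kernel)

theorem longSB2 : LongS chevB2 TB2.cert [0, 1, 0, 1] (fun j => [0, 1].getD j 0) := LongS.of_chk (by decide +kernel)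

theorem longSD4 : LongS chevD4 TD4.cert [0, 1, 0, 2, 1, 0, 3, 1, 0, 2, 1, 3] (fun j => [0, 1, 2, 3].getD j 0) := LongS.of_chk (by decide +kernel)

theorem longSF4 : LongS chevF4 TF4.cert [0, 1, 0, 2, 1, 0, 2, 1, 2, 3, 2, 1, 0, 2, 1, 2, 3, 2, 1, 0, 2, 1, 2, 3] (fun j => [0, 1, 2, 3].getD j 0) := LongS.of_chk (by decide +kernel)

theorem longSE6 : LongS chevE6 TE6.cert [0, 1, 2, 0, 3, 1, 2, 0, 3, 2, 4, 3, 1, 2, 0, 3, 2, 4, 3, 1, 5, 4, 3, 1, 2, 0, 3, 2, 4, 3, 1, 5, 4, 3, 2, 0] (fun j => [5, 1, 4, 3, 2, 0].getD j 0) := LongS.of_chk (by decide +kernel)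

theorem longSE7 : LongS chevE7 TE7.cert [0, 1, 2, 0, 3, 1, 2, 0, 3, 2, 4, 3, 1, 2, 0, 3, 2, 4, 3, 1, 5, 4, 3, 1, 2, 0, 3, 2, 4, 3, 1, 5, 4, 3, 2, 0, 6, 5, 4, 3, 1, 2, 0, 3, 2, 4, 3, 1, 5, 4, 3, 2, 0, 6, 5, 4, 3, 1, 2, 3, 4, 5, 6] (fun j => [0, 1, 2, 3, 4, 5, 6].getD j 0) := LongS.of_chk (by decide +kernel)

theorem longSE8 : LongS chevE8 TE8.cert [0, 1, 2, 0, 3, 1, 2, 0, 3, 2, 4, 3, 1, 2, 0, 3, 2, 4, 3, 1, 5, 4, 3, 1, 2, 0, 3, 2, 4, 3, 1, 5, 4, 3, 2, 0, 6, 5, 4, 3, 1, 2, 0, 3, 2, 4, 3, 1, 5, 4, 3, 2, 0, 6, 5, 4, 3, 1, 2, 3, 4, 5, 6, 7, 6, 5, 4, 3, 1, 2, 0, 3, 2, 4, 3, 1, 5, 4, 3, 2, 0, 6, 5, 4, 3, 1, 2, 3, 4, 5, 6, 7, 6, 5, 4, 3, 1, 2, 0, 3, 2, 4, 3, 1, 5, 4, 3, 2, 0, 6, 5, 4, 3, 1, 2, 3, 4, 5, 6, 7] (fun j => [0, 1, 2, 3, 4, 5, 6, 7].getD j 0) := LongS.of_chk (by decide +kernel)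

theorem steinbergE8 (θ : ↥(chevE8.group F) ≃* ↥(chevE8.group F)) :
    ∃ (x : ↥(chevE8.group F)) (d g f : ↥(chevE8.group F) ≃* ↥(chevE8.group F)),
      chevE8.IsDiagonalAut d ∧ chevE8.IsGraphAut g ∧ chevE8.IsFieldAut f ∧ ∀ y : ↥(chevE8.group F), θ y = x * d (g (f y)) * x⁻¹ := by
  refine TE8.extra.steinberg_cases TE8.good TE8.braid TE8.long longSE8 (by decide +kernel) (by decide +kernel) TE8.chainStep (Ls := [[0, 1, 2, 3, 4, 5, 6, 7]]) (by decide +kernel) ?_ θ
  intro L hL θ₁ π a σ ha h1 h2 hπ hstar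
  simp only [List.mem_singleton] at hL
  subst hL
  exact TE8.good.input_noswap TE8.conn (by decide +kernel) (by decide +kernel) ((HasGraph1.id _ _).congr (by decide +kernel)) hπ hstar

theorem steinbergE7 (θ : ↥(chevE7.group F) ≃* ↥(chevE7.group F)) :
    ∃ (x : ↥(chevE7.group F)) (d g f : ↥(chevE7.group F) ≃* ↥(chevE7.group F)),
      chevE7.IsDiagonalAut d ∧ chevE7.IsGraphAut g ∧ chevE7.IsFieldAut f ∧ ∀ y : ↥(chevE7.group F), θ y = x * d (g (f y)) * x⁻¹ := by
  refine TE7.extra.steinberg_cases TE7.good TE7.braid TE7.long longSE7 (by decide +kernel) (by decide +kernel) TE7.chainStep (Ls := [[0, 1, 2, 3, 4, 5, 6]]) (by decide +kernel) ?_ θ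
  intro L hL θ₁ π a σ ha h1 h2 hπ hstar
  simp only [List.mem_singleton] at hL
  subst hL
  exact TE7.good.input_noswap TE7.conn (by decide +kernel) (by decide +kernel) ((HasGraph1.id _ _).congr (by decide +kernel)) hπ hstar

theorem steinbergE6 (θ : ↥(chevE6.group F) ≃* ↥(chevE6.group F)) :
    ∃ (x : ↥(chevE6.group F)) (d g f : ↥(chevE6.group F) ≃* ↥(chevE6.group F)),
      chevE6.IsDiagonalAut d ∧ chevE6.IsGraphAut g ∧ chevE6.IsFieldAut f ∧ ∀ y : ↥(chevE6.group F), θ y = x * d (g (f y)) * x⁻¹ := by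
  refine TE6.extra.steinberg_cases TE6.good TE6.braid TE6.long longSE6 (by decide +kernel) (by decide +kernel) TE6.chainStep (Ls := [[0, 1, 2, 3, 4, 5], [5, 1, 4, 3, 2, 0]]) (by decide +kernel) ?_ θ
  intro L hL θ₁ π a σ ha h1 h2 hπ hstar
  simp only [List.mem_cons, List.not_mem_nil, or_false] at hL
  rcases hL with rfl | rfl
  · exact TE6.good.input_noswap TE6.conn (by decide +kernel) (by decide +kernel) ((HasGraph1.id _ _).congr (by decide +kernel)) hπ hstar
  · exact TE6.good.input_noswap TE6.conn (by decide +kernel) (by decide +kernel) (spE6.cert.exists_aut TE6.good) hπ hstar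

lemma hasGraphD4 (L : List ℕ) (hL : L ∈ permSols TD4.cert 4 4) : HasGraph1 chevD4 F (fun i => L.getD i 0) := by
  have a : HasGraph1 chevD4 F (fun i => ([2, 1, 0, 3] : List ℕ).getD i 0) := spD4a.cert.exists_aut TD4.good
  have b : HasGraph1 chevD4 F (fun i => ([3, 1, 2, 0] : List ℕ).getD i 0) := spD4b.cert.exists_aut TD4.good
  have ha : ∀ i < chevD4.rank, ([2, 1, 0, 3] : List ℕ).getD i 0 < chevD4.rank := by decide +kernel
  have hb : ∀ i < chevD4.rank, ([3, 1, 2, 0] : List ℕ).getD i 0 < chevD4.rank := by decide +kernel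
  have hab : ∀ i < chevD4.rank, ([3, 1, 2, 0] : List ℕ).getD (([2, 1, 0, 3] : List ℕ).getD i 0) 0 < chevD4.rank := by decide +kernel
  have e : permSols TD4.cert 4 4 = [[0, 1, 2, 3], [0, 1, 3, 2], [2, 1, 0, 3], [2, 1, 3, 0], [3, 1, 0, 2], [3, 1, 2, 0]] := by decide +kernel
  rw [e] at hL
  simp only [List.mem_cons, List.not_mem_nil, or_false] at hL
  rcases hL with rfl | rfl | rfl | rfl | rfl | rfl
  · exact (HasGraph1.id _ _).congr (by decide +kernel)
  · exact ((a.comp b ha).comp a hab).congr (by decide +kernel)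
  · exact a
  · exact (a.comp b ha).congr (by decide +kernel)
  · exact (b.comp a hb).congr (by decide +kernel)
  · exact b

theorem steinbergD4 (θ : ↥(chevD4.group F) ≃* ↥(chevD4.group F)) :
    ∃ (x : ↥(chevD4.group F)) (d g f : ↥(chevD4.group F) ≃* ↥(chevD4.group F)),
      chevD4.IsDiagonalAut d ∧ chevD4.IsGraphAut g ∧ chevD4.IsFieldAut f ∧ ∀ y : ↥(chevD4.group F), θ y = x * d (g (f y)) * x⁻¹ := by
  refine TD4.extra.steinberg_cases TD4.good TD4.braid TD4.long longSD4 (by decide +kernel) (by decide +kernel) TD4.chainStep (Ls := permSols TD4.cert 4 4) rfl ?_ θ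
  intro L hL θ₁ π a σ ha h1 h2 hπ hstar
  have hchk : ∀ L ∈ permSols TD4.cert 4 4, noSwapChk chevD4 L = true := by decide +kernel
  exact TD4.good.input_noswap TD4.conn (by decide +kernel) (hchk L hL) (hasGraphD4 L hL) hπ hstar

theorem steinbergB2 (θ : ↥(chevB2.group F) ≃* ↥(chevB2.group F)) :
    ∃ (x : ↥(chevB2.group F)) (d g f : ↥(chevB2.group F) ≃* ↥(chevB2.group F)),
      chevB2.IsDiagonalAut d ∧ chevB2.IsGraphAut g ∧ chevB2.IsFieldAut f ∧ ∀ y : ↥(chevB2.group F), θ y = x * d (g (f y)) * x⁻¹ := by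
  refine TB2.extra.steinberg_cases TB2.good TB2.braid TB2.long longSB2 (by decide +kernel) (by decide +kernel) TB2.chainStep (Ls := [[0, 1], [1, 0]]) (by decide +kernel) ?_ θ
  intro L hL θ₁ π a σ ha h1 h2 hπ hstar
  simp only [List.mem_cons, List.not_mem_nil, or_false] at hL
  rcases hL with rfl | rfl
  · exact TB2.good.input_noswap TB2.conn (by decide +kernel) (by decide +kernel) ((HasGraph1.id _ _).congr (by decide +kernel)) hπ hstar
  · let i0 : Fin chevB2.rank := ⟨0, by decide⟩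
    let i1 : Fin chevB2.rank := ⟨1, by decide⟩
    have h01 : ∀ c, σ i0 c = (σ i1 c) ^ 2 := by
      apply ringEquiv_pow_of_inv _ _ 2 (by norm_num)
      intro c hc
      have := hstar i0 i1 c hc
      rw [hπ i0, hπ i1] at this
      have e1 : cartanA chevB2 (chevB2.simple 1) (chevB2.simple 0) = -1 := by decide +kernel
      have e2 : cartanA chevB2 (chevB2.simple 0) (chevB2.simple 1) = -2 := by decide +kernel
      exact (by simpa [i0, i1, e1, e2] using this)
    have h20 := two_eq_zero_of_sq _ _ h01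
    haveI : CharP F 2 := CharTwo.of_one_ne_zero_of_two_eq_zero one_ne_zero h20
    haveI : Fact (Nat.Prime 2) := ⟨Nat.prime_two⟩
    refine TB2.good.input_swap TB2.extra (p := 2) (P := [(1, 2), (0, 1)]) gfB2_chk TB2.braid TB2.long (TB2.rank1 _) gfB2_simple (by decide +kernel) (by decide +kernel) ?_ (σ i1) ?_
    · intro i
      rw [hπ i]
      have := (by decide +kernel : ∀ i < chevB2.rank, ([1, 0] : List ℕ).getD i 0 = (([(1, 2), (0, 1)] : List (ℕ × ℕ)).getD i (0, 1)).1) i i.2
      exact this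
    · rintro ⟨i, hi⟩ t
      have hi' : i < 2 := hi
      interval_cases i
      · exact h01 t
      · exact (pow_one _).symm

theorem steinbergF4 (θ : ↥(chevF4.group F) ≃* ↥(chevF4.group F)) :
    ∃ (x : ↥(chevF4.group F)) (d g f : ↥(chevF4.group F) ≃* ↥(chevF4.group F)),
      chevF4.IsDiagonalAut d ∧ chevF4.IsGraphAut g ∧ chevF4.IsFieldAut f ∧ ∀ y : ↥(chevF4.group F), θ y = x * d (g (f y)) * x⁻¹ := by
  refine TF4.extra.steinberg_cases TF4.good TF4.braid TF4.long longSF4 (by decide +kernel) (by decide +kernel) TF4.chainStep (Ls := [[0, 1, 2, 3], [3, 2, 1, 0]]) (by decide +kernel) ?_ θ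
  intro L hL θ₁ π a σ ha h1 h2 hπ hstar
  simp only [List.mem_cons, List.not_mem_nil, or_false] at hL
  rcases hL with rfl | rfl
  · exact TF4.good.input_noswap TF4.conn (by decide +kernel) (by decide +kernel) ((HasGraph1.id _ _).congr (by decide +kernel)) hπ hstar
  · let i0 : Fin chevF4.rank := ⟨0, by decide⟩
    let i1 : Fin chevF4.rank := ⟨1, by decide⟩
    let i2 : Fin chevF4.rank := ⟨2, by decide⟩
    let i3 : Fin chevF4.rank := ⟨3, by decide⟩
    have h23 : σ i2 = σ i3 := by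
      apply ringEquiv_eq_of_inv
      intro c hc
      have := hstar i2 i3 c hc
      rw [hπ i2, hπ i3] at this
      have e1 : cartanA chevF4 (chevF4.simple 1) (chevF4.simple 0) = -1 := by decide +kernel
      have e2 : cartanA chevF4 (chevF4.simple 2) (chevF4.simple 3) = -1 := by decide +kernel
      exact (by simpa [i2, i3, e1, e2] using this)
    have h01 : σ i0 = σ i1 := by
      apply ringEquiv_eq_of_inv
      intro c hc
      have := hstar i0 i1 c hc
      rw [hπ i0, hπ i1] at this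
      have e1 : cartanA chevF4 (chevF4.simple 3) (chevF4.simple 2) = -1 := by decide +kernel
      have e2 : cartanA chevF4 (chevF4.simple 0) (chevF4.simple 1) = -1 := by decide +kernel
      exact (by simpa [i0, i1, e1, e2] using this)
    have h12 : ∀ c, σ i1 c = (σ i2 c) ^ 2 := by
      apply ringEquiv_pow_of_inv _ _ 2 (by norm_num)
      intro c hc
      have := hstar i1 i2 c hc
      rw [hπ i1, hπ i2] at this
      have e1 : cartanA chevF4 (chevF4.simple 2) (chevF4.simple 1) = -1 := by decide +kernel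
      have e2 : cartanA chevF4 (chevF4.simple 1) (chevF4.simple 2) = -2 := by decide +kernel
      exact (by simpa [i1, i2, e1, e2] using this)
    have h20 := two_eq_zero_of_sq _ _ h12
    haveI : CharP F 2 := CharTwo.of_one_ne_zero_of_two_eq_zero one_ne_zero h20
    haveI : Fact (Nat.Prime 2) := ⟨Nat.prime_two⟩
    refine TF4.good.input_swap TF4.extra (p := 2) (P := [(3, 2), (2, 2), (1, 1), (0, 1)]) gfF4_chk TF4.braid TF4.long (TF4.rank1 _) gfF4_simple (by decide +kernel) (by decide +kernel) ?_ (σ i3) ?_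
    · intro i
      rw [hπ i]
      have := (by decide +kernel : ∀ i < chevF4.rank, ([3, 2, 1, 0] : List ℕ).getD i 0 = (([(3, 2), (2, 2), (1, 1), (0, 1)] : List (ℕ × ℕ)).getD i (0, 1)).1) i i.2
      exact this
    · rintro ⟨i, hi⟩ t
      have hi' : i < 4 := hi
      interval_cases i
      · show σ i0 t = _
        rw [h01, h12, h23]
        rfl
      · show σ i1 t = _
        rw [h12, h23]
        rfl
      · show σ i2 t = _
        rw [h23]
        exact (pow_one _).symm
      · exact (pow_one _).symm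

/-- The matrices in characteristic two. -/
lemma g2_two_word [CharP F 2] :
    (chevG2.x F 6 1 * chevG2.x F 7 1 * chevG2.x F 5 1) ^ 6 = 1 ∧ (chevG2.x F 7 1 * chevG2.x F 6 1 * chevG2.x F 4 1) ^ 6 ≠ 1 := by
  let ι : ZMod 2 →+* F := ZMod.castHom (dvd_refl 2) F
  have hx : ∀ r, ι.mapMatrix (chevG2.x (ZMod 2) r 1) = chevG2.x F r 1 := by
    intro r
    have := TG2.good.x_map_hom ι r (1 : ZMod 2)
    rw [map_one] at this
    exact this
  constructor
  · have h1 : ((chevG2.x (ZMod 2) 6 1 * chevG2.x (ZMod 2) 7 1 * chevG2.x (ZMod 2) 5 1) ^ 6 = 1) := by decide +kernel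
    have h2 := congrArg ι.mapMatrix h1
    rw [map_pow, map_mul, map_mul, hx, hx, hx, map_one] at h2
    exact h2
  · intro h
    have h1 : ((chevG2.x (ZMod 2) 7 1 * chevG2.x (ZMod 2) 6 1 * chevG2.x (ZMod 2) 4 1) ^ 6 ≠ 1) := by decide +kernel
    apply h1
    have hinj : Function.Injective (RingHom.mapMatrix (m := chevG2.Idx) ι) := by
      intro A B hAB
      ext i j
      have := congrFun (congrFun hAB i) j
      exact ι.injective this
    apply hinj
    rw [map_pow, map_mul, map_mul, hx, hx, hx, map_one]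
    exact h

theorem steinbergG2 (θ : ↥(chevG2.group F) ≃* ↥(chevG2.group F)) :
    ∃ (x : ↥(chevG2.group F)) (d g f : ↥(chevG2.group F) ≃* ↥(chevG2.group F)),
      chevG2.IsDiagonalAut d ∧ chevG2.IsGraphAut g ∧ chevG2.IsFieldAut f ∧ ∀ y : ↥(chevG2.group F), θ y = x * d (g (f y)) * x⁻¹ := by
  refine TG2.extra.steinberg_cases TG2.good TG2.braid TG2.long longSG2 (by decide +kernel) (by decide +kernel) TG2.chainStep (Ls := [[0, 1], [1, 0]]) (by decide +kernel) ?_ θ
  intro L hL θ₁ π a σ ha h1 h2 hπ hstar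
  simp only [List.mem_cons, List.not_mem_nil, or_false] at hL
  rcases hL with rfl | rfl
  · exact TG2.good.input_noswap TG2.conn (by decide +kernel) (by decide +kernel) ((HasGraph1.id _ _).congr (by decide +kernel)) hπ hstar
  · let i0 : Fin chevG2.rank := ⟨0, by decide⟩
    let i1 : Fin chevG2.rank := ⟨1, by decide⟩
    have h01 : ∀ c, σ i0 c = (σ i1 c) ^ 3 := by
      apply ringEquiv_pow_of_inv _ _ 3 (by norm_num)
      intro c hc
      have := hstar i0 i1 c hc
      rw [hπ i0, hπ i1] at this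
      have e1 : cartanA chevG2 (chevG2.simple 1) (chevG2.simple 0) = -1 := by decide +kernel
      have e2 : cartanA chevG2 (chevG2.simple 0) (chevG2.simple 1) = -3 := by decide +kernel
      exact (by simpa [i0, i1, e1, e2] using this)
    by_cases h20 : (2 : F) = 0
    · exfalso
      haveI : CharP F 2 := CharTwo.of_one_ne_zero_of_two_eq_zero one_ne_zero h20
      have h01' := eq_zero_or_one_of_cube _ _ h01 h20
      have hone : ∀ x : F, x ≠ 0 → x = 1 := fun x hx => (h01' x).resolve_left hx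
      have hp0 : chevG2.simple 0 < chevG2.nroots := by decide
      have hp1 : chevG2.simple 1 < chevG2.nroots := by decide
      have hn0 : chevG2.neg (chevG2.simple 0) < chevG2.nroots := by decide +kernel
      have hn1 : chevG2.neg (chevG2.simple 1) < chevG2.nroots := by decide +kernel
      have hG := TG2.good
      have eπ0 : π i0 = i1 := Fin.ext (hπ i0)
      have eπ1 : π i1 = i0 := Fin.ext (hπ i1)
      have ea : ∀ i, a i = 1 := fun i => hone _ (ha i)
      have eA : θ₁ (hG.xS hp0 (1 : F)) = hG.xS hp1 1 := by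
        apply Subtype.ext
        have := h1 i0 1
        rw [eπ0, ea, map_one, one_mul] at this
        exact this
      have eB : θ₁ (hG.xS hp1 (1 : F)) = hG.xS hp0 1 := by
        apply Subtype.ext
        have := h1 i1 1
        rw [eπ1, ea, map_one, one_mul] at this
        exact this
      have eC : θ₁ (hG.xS hn0 (1 : F)) = hG.xS hn1 1 := by
        apply Subtype.ext
        have := h2 i0 1
        rw [eπ0, ea, map_one, inv_one, one_mul] at this
        exact this
      obtain ⟨w1, w2⟩ := g2_two_word (F := F)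
      have hv : ∀ r (hr : r < chevG2.nroots), (((hG.xS hr (1 : F) : ↥(chevG2.group F)) : GL chevG2.Idx F) : Matrix chevG2.Idx chevG2.Idx F) = chevG2.x F r 1 := by
        intro r hr
        exact hG.xG_val r 1
      have e2 : (hG.xS hp1 (1 : F) * hG.xS hp0 1 * hG.xS hn1 1) ^ 6 = 1 := by
        apply Subtype.ext
        apply Units.ext
        show ((((hG.xS hp1 (1 : F) : ↥(chevG2.group F)) : GL chevG2.Idx F) : Matrix chevG2.Idx chevG2.Idx F) * (((hG.xS hp0 (1 : F) : ↥(chevG2.group F)) : GL chevG2.Idx F) : Matrix chevG2.Idx chevG2.Idx F) * (((hG.xS hn1 (1 : F) : ↥(chevG2.group F)) : GL chevG2.Idx F) : Matrix chevG2.Idx chevG2.Idx F)) ^ 6 = 1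
        rw [hv, hv, hv]
        exact w1
      have e1 : (hG.xS hp0 (1 : F) * hG.xS hp1 1 * hG.xS hn0 1) ^ 6 = 1 := by
        apply θ₁.injective
        rw [map_pow, map_mul, map_mul, eA, eB, eC, e2, map_one]
      apply w2
      have e3 := congrArg (fun z : ↥(chevG2.group F) => ((z : GL chevG2.Idx F) : Matrix chevG2.Idx chevG2.Idx F)) e1
      have e4 : ((((hG.xS hp0 (1 : F) : ↥(chevG2.group F)) : GL chevG2.Idx F) : Matrix chevG2.Idx chevG2.Idx F) * (((hG.xS hp1 (1 : F) : ↥(chevG2.group F)) : GL chevG2.Idx F) : Matrix chevG2.Idx chevG2.Idx F) * (((hG.xS hn0 (1 : F) : ↥(chevG2.group F)) : GL chevG2.Idx F) : Matrix chevG2.Idx chevG2.Idx F)) ^ 6 = 1 := e3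
      rw [hv, hv, hv] at e4
      exact e4
    · have h30 : ((3 : ℕ) : F) = 0 := by
        have h6 := six_eq_zero_of_cube _ _ h01
        apply mul_left_cancel₀ h20
        push_cast
        linear_combination h6
      haveI : CharP F 3 := charP_of_prime_cast Nat.prime_three h30
      haveI : Fact (Nat.Prime 3) := ⟨Nat.prime_three⟩
      refine TG2.good.input_swap TG2.extra (p := 3) (P := [(1, 3), (0, 1)]) gfG2_chk TG2.braid TG2.long (TG2.rank1 _) gfG2_simple (by decide +kernel) (by decide +kernel) ?_ (σ i1) ?_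
      · intro i
        rw [hπ i]
        have := (by decide +kernel : ∀ i < chevG2.rank, ([1, 0] : List ℕ).getD i 0 = (([(1, 3), (0, 1)] : List (ℕ × ℕ)).getD i (0, 1)).1) i i.2
        exact this
      · rintro ⟨i, hi⟩ t
        have hi' : i < 2 := hi
        interval_cases i
        · exact h01 t
        · exact (pow_one _).symm

end

end CfsgLib.Chev
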