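/-
Graph automorphisms of the simply laced types act on all root elements by the permuted root, up to sign.
-/
import Cfsg.Agent.Lib.Chev.Gen

set_option autoImplicit false

namespace CfsgLib.Chev

open Cfsg.Lie Cfsg.Lie.ChevalleyDatum

section

variable {D : ChevalleyDatum} {C : Cert} (hG : Good D C) {F : Type*} [Field F]

include hG

theorem Good.graph_root_elem (π : Equiv.Perm (Fin D.rank)) (φ : ↥(D.group F) ≃* ↥(D.group F))
    (hφ : ∀ (g : ↥(D.group F)) (i : Fin D.rank) (t : F),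
      (((g : GL D.Idx F) : Matrix D.Idx D.Idx F) = D.x F (D.simple i) t →
        ((φ g : GL D.Idx F) : Matrix D.Idx D.Idx F) = D.x F (D.simple (π i)) t) ∧
      (((g : GL D.Idx F) : Matrix D.Idx D.Idx F) = D.x F (D.neg (D.simple i)) t →
        ((φ g : GL D.Idx F) : Matrix D.Idx D.Idx F) = D.x F (D.neg (D.simple (π i))) t))
    (hlt : ∀ r < D.nroots, D.permRoot π r < D.nroots)
    (hs : ∀ i : Fin D.rank, D.permRoot π (D.simple i) = D.simple (π i))
    (hst : ∀ i : Fin D.rank, ∀ r < D.nroots, D.permRoot π (C.pi i r) = C.pi (π i) (D.permRoot π r))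
    {b : ℕ} (i0 : Fin D.rank) {L : List ℕ} (hL : ∀ i ∈ L, i < D.rank)
    (hb : ∀ r < D.nroots, C.rbase r = true → r = b) (hw : (actW C L (D.simple i0)).1 = b)
    (r : ℕ) (hr : r < D.nroots) :
    ∃ ε : F, (ε = 1 ∨ ε = -1) ∧ ∀ (g : ↥(D.group F)) (t : F),
      ((g : GL D.Idx F) : Matrix D.Idx D.Idx F) = D.x F r t →
        ((φ g : GL D.Idx F) : Matrix D.Idx D.Idx F) = D.x F (D.permRoot π r) (ε * t) := by
  classical
  set P : ℕ → Prop := fun r => ∃ ε : F, (ε = 1 ∨ ε = -1) ∧ ∀ (g : ↥(D.group F)) (t : F),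
      ((g : GL D.Idx F) : Matrix D.Idx D.Idx F) = D.x F r t →
        ((φ g : GL D.Idx F) : Matrix D.Idx D.Idx F) = D.x F (D.permRoot π r) (ε * t) with hP
  -- the image of the monomial element
  have hn : ∀ i : Fin D.rank, ∀ (h1 : hG.nG i.2 F ∈ D.group F) (h2 : hG.nG (π i).2 F ∈ D.group F),
      φ ⟨hG.nG i.2 F, h1⟩ = ⟨hG.nG (π i).2 F, h2⟩ := by
    intro i h1 h2
    have hsl : D.simple i < D.nroots := by
      rw [hG.simple_eq i.2]
      exact hG.simple_lt' i.2
    have hnl : D.neg (D.simple i) < D.nroots := hG.shp.neg_lt _ hsl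
    have hsl' : D.simple (π i) < D.nroots := by
      rw [hG.simple_eq (π i).2]
      exact hG.simple_lt' (π i).2
    have hnl' : D.neg (D.simple (π i)) < D.nroots := hG.shp.neg_lt _ hsl'
    have e1 : ∀ t : F, ((φ ⟨hG.xG (D.simple i) t, hG.mem_group hsl t⟩ : ↥(D.group F)) : GL D.Idx F) = hG.xG (D.simple (π i)) t := by
      intro t
      apply Units.ext
      rw [hG.xG_val]
      exact (hφ ⟨hG.xG (D.simple i) t, hG.mem_group hsl t⟩ i t).1 (hG.xG_val _ _)
    have e2 : ∀ t : F, ((φ ⟨hG.xG (D.neg (D.simple i)) t, hG.mem_group hnl t⟩ : ↥(D.group F)) : GL D.Idx F) = hG.xG (D.neg (D.simple (π i))) t := by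
      intro t
      apply Units.ext
      rw [hG.xG_val]
      exact (hφ ⟨hG.xG (D.neg (D.simple i)) t, hG.mem_group hnl t⟩ i t).2 (hG.xG_val _ _)
    have e3 : (⟨hG.nG i.2 F, h1⟩ : ↥(D.group F)) = ⟨hG.xG (D.simple i) 1, hG.mem_group hsl 1⟩ *
        ⟨hG.xG (D.neg (D.simple i)) (-1), hG.mem_group hnl (-1)⟩ * ⟨hG.xG (D.simple i) 1, hG.mem_group hsl 1⟩ := by
      apply Subtype.ext
      simp only [Subgroup.coe_mul]
      rw [hG.nG_eq i.2]
      simp [Good.nnG, nn]
    rw [e3, map_mul, map_mul]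
    apply Subtype.ext
    simp only [Subgroup.coe_mul]
    rw [e1, e2, hG.nG_eq (π i).2]
    simp [Good.nnG, nn]
  have hstep : ∀ i : Fin D.rank, ∀ r < D.nroots, P r → P (C.pi i r) := by
    rintro i r hr ⟨ε, hε, h⟩
    have hpr : D.permRoot π r < D.nroots := hlt r hr
    have hsg1 := hG.sg_sq (F := F) i.2 hr
    have hsg2 := hG.sg_sq (F := F) (π i).2 hpr
    refine ⟨((C.sg (π i) (D.permRoot π r) : ℤ) : F) * ε * ((C.sg i r : ℤ) : F), ?_, ?_⟩
    · have h1 := mul_self_eq_one_iff.1 hsg1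
      have h2 := mul_self_eq_one_iff.1 hsg2
      rcases h1 with h1 | h1 <;> rcases h2 with h2 | h2 <;> rcases hε with hε | hε <;> rw [h1, h2, hε] <;> simp
    · intro g t hg
      have hni : hG.nG i.2 F ∈ D.group F := hG.monomial_le_group (hG.nG_mem_monomial i.2)
      have hni' : hG.nG (π i).2 F ∈ D.group F := hG.monomial_le_group (hG.nG_mem_monomial (π i).2)
      have hg0 : hG.xG r (((C.sg i r : ℤ) : F) * t) ∈ D.group F := hG.mem_group hr _
      have e0 : g = ⟨hG.nG i.2 F, hni⟩ * ⟨hG.xG r (((C.sg i r : ℤ) : F) * t), hg0⟩ * ⟨hG.nG i.2 F, hni⟩⁻¹ := by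
        apply Subtype.ext
        simp only [Subgroup.coe_mul, Subgroup.coe_inv]
        rw [hG.nG_conj i.2 hr, ← mul_assoc, hG.sg_sq i.2 hr, one_mul]
        apply Units.ext
        rw [hg, hG.xG_val]
      have e1 := h ⟨hG.xG r (((C.sg i r : ℤ) : F) * t), hg0⟩ _ (hG.xG_val _ _)
      rw [← hG.xG_val] at e1
      have e2 := Units.ext (u := ((φ ⟨hG.xG r (((C.sg i r : ℤ) : F) * t), hg0⟩ : ↥(D.group F)) : GL D.Idx F)) e1
      rw [e0, map_mul, map_mul, map_inv, hn i hni hni']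
      simp only [Subgroup.coe_mul, Subgroup.coe_inv]
      rw [e2, hG.nG_conj (π i).2 hpr, hG.xG_val, hst i r hr]
      congr 1
      ring
  apply hG.root_induct (P := P) ?_ (fun i hi r hr h => hstep ⟨i, hi⟩ r hr h) r hr
  intro r hr hrb
  rw [hb r hr hrb, ← hw]
  have hbase : P (D.simple i0) := by
    refine ⟨1, Or.inl rfl, ?_⟩
    intro g t hg
    rw [one_mul, hs]
    exact (hφ g i0 t).1 hg
  have hsl : D.simple i0 < D.nroots := by
    rw [hG.simple_eq i0.2]
    exact hG.simple_lt' i0.2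
  clear hw
  induction L with
  | nil => exact hbase
  | cons i L ih =>
    have hi : i < D.rank := hL i (by simp)
    have ih' := ih (fun j hj => hL j (by simp [hj]))
    have hlt' : ∀ L : List ℕ, (∀ i ∈ L, i < D.rank) → (actW C L (D.simple i0)).1 < D.nroots := by
      intro L hL
      have := hG.permW_val hL ⟨_, hsl⟩
      simp only at this
      rw [← this]
      exact Fin.isLt _
    exact hstep ⟨i, hi⟩ _ (hlt' L (fun j hj => hL j (by simp [hj]))) ih'

end

end CfsgLib.Chev
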