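/-
The order of the outer automorphism group of a Chevalley group.
-/
import Cfsg.Agent.Lib.Chev.OutCore
import Cfsg.Prelude.Def_KGroupFacts

set_option autoImplicit false

namespace CfsgLib.Chev

open Cfsg Cfsg.Lie Cfsg.Lie.ChevalleyDatum CfsgLib.BN

section

variable {D : ChevalleyDatum} {C : Cert} (hG : Good D C) {F : Type*} [Field F] (hE : Extra D C)

include hG hE

/-- Diagonal automorphisms in standard form. -/
lemma Extra.exists_diag_prs [Finite F] (hC : ChainStep D) (b : Fin D.rank → Fˣ) :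
    ∃ (χ : ℕ → Fˣ) (d : ↥(D.group F) ≃* ↥(D.group F)), d ∈ prsAut D F ∧ D.IsRootCharacter χ ∧ (∀ i : Fin D.rank, χ (D.simple i) = b i) ∧ D.IsDiagonalAut d ∧
      ∀ (r : ℕ) (hr : r < D.nroots) (t : F), ((d (hG.xS hr t) : ↥(D.group F)) : GL D.Idx F) = hG.xG r ((χ r : F) * t) := by
  obtain ⟨χ, d, h1, h2, h3, h4⟩ := hE.exists_diag_aut hG hC b
  refine ⟨χ, d, ?_, h1, h2, h3, h4⟩
  apply hG.mem_prsAut_of_root (θ := d)
  · intro r hr hp t
    rw [h4 r hr]
    exact hG.posUnipotent_mem hp _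
  · intro r hr hp t
    rw [h4 r hr]
    exact hG.negUnipotent_mem hp _

omit hE in
/-- Field automorphisms in standard form. -/
lemma Good.exists_field_prs [Finite F] (τ : F ≃+* F) :
    ∃ f : ↥(D.group F) ≃* ↥(D.group F), f ∈ prsAut D F ∧ D.IsFieldAut f ∧
      ∀ (r : ℕ) (hr : r < D.nroots) (t : F), f (hG.xS hr t) = hG.xS hr (τ t) := by
  obtain ⟨f, hf⟩ := hG.field_aut τ
  have h4 : ∀ (r : ℕ) (hr : r < D.nroots) (t : F), f (hG.xS hr t) = hG.xS hr (τ t) := by
    intro r hr t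
    apply Subtype.ext
    exact (hG.eq_xG_iff _ _ _).1 (hf (hG.xS hr t) r t hr (hG.xG_val _ _))
  refine ⟨f, ?_, ⟨τ, hf⟩, h4⟩
  apply hG.mem_prsAut_of_root (θ := f)
  · intro r hr hp t
    rw [h4 r hr]
    exact hG.posUnipotent_mem hp _
  · intro r hr hp t
    rw [h4 r hr]
    exact hG.negUnipotent_mem hp _

/-- Standard forms exist as soon as the graph part does. -/
lemma Extra.exists_std [Finite F] (hC : ChainStep D) {g : MulAut ↥(D.group F)} {π : Equiv.Perm (Fin D.rank)} (hg : g ∈ prsAut D F)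
    (hform : hG.IsStd g π (fun _ => 1) (RingEquiv.refl F)) (a : Fin D.rank → Fˣ) (τ : F ≃+* F) :
    ∃ θ ∈ prsAut D F, hG.IsStd θ π a τ := by
  obtain ⟨χ, d, hd, hχ, hχs, _, hdv⟩ := hE.exists_diag_prs hG hC (fun i => a (π⁻¹ i))
  obtain ⟨f, hf, _, hfv⟩ := hG.exists_field_prs τ
  have hχa : ∀ i, χ (D.simple (π i)) = a i := by
    intro i
    rw [hχs]
    simp
  refine ⟨(d : MulAut ↥(D.group F)) * g * f, Subgroup.mul_mem _ (Subgroup.mul_mem _ hd hg) hf, ?_, ?_⟩
  · intro i t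
    show ((d (g (f _)) : ↥(D.group F)) : GL D.Idx F) = _
    rw [hfv]
    have e1 := hform.1 i (τ t)
    simp only [Units.val_one, one_mul, RingEquiv.refl_apply] at e1
    have e2 : g (hG.xS (hG.simple_lt i.2) (τ t)) = hG.xS (hG.simple_lt (π i).2) ((τ t) ^ D.graphExp (ringChar F) i (π i)) := Subtype.ext e1
    rw [e2, hdv, hχa]
  · intro i t
    show ((d (g (f _)) : ↥(D.group F)) : GL D.Idx F) = _
    rw [hfv]
    have e1 := hform.2 i (τ t)
    simp only [inv_one, Units.val_one, one_mul, RingEquiv.refl_apply] at e1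
    have e2 : g (hG.xS (hG.shp.neg_lt _ (hG.simple_lt i.2)) (τ t)) = hG.xS (hG.shp.neg_lt _ (hG.simple_lt (π i).2)) ((τ t) ^ D.graphExp (ringChar F) i (π i)) := Subtype.ext e1
    rw [e2, hdv, hχ.1 _ (hG.simple_lt (π i).2), hχa]

/-- The order of the outer automorphism group. -/
theorem Extra.out_card (hB : Braid D C) (hL : HasLong D C) (hC : ChainStep D) [Finite F] (h0 : 0 < D.rank) (Pset : Set (Equiv.Perm (Fin D.rank)))
    (hex : ∀ π ∈ Pset, ∃ g ∈ prsAut D F, hG.IsStd g π (fun _ => 1) (RingEquiv.refl F))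
    (hall : ∀ θ ∈ prsAut D F, ∃ π ∈ Pset, ∃ a τ, hG.IsStd θ π a τ) :
    Nat.card (Out ↥(D.group F)) * Nat.card ↥(D.diagonalSubgroup F) =
      (Nat.card Fˣ) ^ D.rank * Nat.card Pset * Nat.card (F ≃+* F) := by
  classical
  -- the order of the group of automorphisms preserving `U` and `V`
  have hcount : Nat.card ↥(prsAut D F) = Nat.card ((Fin D.rank → Fˣ) × Pset × (F ≃+* F)) := by
    choose! Pf hPf aF τF hF using hall
    let Φ : ↥(prsAut D F) → (Fin D.rank → Fˣ) × Pset × (F ≃+* F) := fun θ => (aF θ, ⟨Pf θ, hPf θ θ.2⟩, τF θ)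
    apply Nat.card_congr
    apply Equiv.ofBijective Φ
    constructor
    · intro θ θ' e
      have e1 : aF θ = aF θ' := congrArg Prod.fst e
      have e2 : Pf θ = Pf θ' := congrArg (fun z => ((z.2.1 : Pset) : Equiv.Perm (Fin D.rank))) e
      have e3 : τF θ = τF θ' := congrArg (fun z => z.2.2) e
      have h1 := hF θ θ.2
      have h2 := hF θ' θ'.2
      rw [← e1, ← e2, ← e3] at h2
      exact Subtype.ext (h1.eq_of_same hG hE h2)
    · rintro ⟨a, ⟨π, hπ⟩, τ⟩
      obtain ⟨g, hg, hform⟩ := hex π hπ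
      obtain ⟨θ, hθ, hstd⟩ := hE.exists_std hG hC hg hform a τ
      refine ⟨⟨θ, hθ⟩, ?_⟩
      obtain ⟨e1, e2, e3⟩ := (hF θ hθ).unique hG hE h0 hstd
      show (aF θ, (⟨Pf θ, hPf θ hθ⟩ : Pset), τF θ) = _
      subst e1 e2 e3
      rfl
  -- the map to the outer automorphism group
  let q : ↥(prsAut D F) →* Out ↥(D.group F) := (QuotientGroup.mk' (Inn ↥(D.group F))).comp (prsAut D F).subtype
  have hq : ∀ θ : ↥(prsAut D F), q θ = (θ : MulAut ↥(D.group F)) := fun _ => rfl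
  have hsurj : Function.Surjective q := by
    intro y
    obtain ⟨θ, rfl⟩ := QuotientGroup.mk_surjective y
    obtain ⟨x, θ₁, hx, hU, hV⟩ := hE.exists_normalize hG hB hL θ
    refine ⟨⟨θ₁, hU, hV⟩, ?_⟩
    have e : θ = MulAut.conj x * θ₁ := by
      refine MulEquiv.ext fun y => ?_
      rw [hx y]
      rfl
    rw [hq, e]
    show (QuotientGroup.mk' (Inn ↥(D.group F))) θ₁ = (QuotientGroup.mk' (Inn ↥(D.group F))) (MulAut.conj x * θ₁)
    have hc : (QuotientGroup.mk' (Inn ↥(D.group F))) (MulAut.conj x) = 1 := by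
      rw [QuotientGroup.mk'_apply]
      exact (QuotientGroup.eq_one_iff _).2 ⟨x, rfl⟩
    rw [map_mul, hc, one_mul]
  have hker : Nat.card ↥q.ker = Nat.card ↥(D.diagonalSubgroup F) := by
    let T : Subgroup ↥(D.group F) := (D.diagonalSubgroup F).subgroupOf (D.group F)
    have hT : Nat.card T = Nat.card ↥(D.diagonalSubgroup F) :=
      Nat.card_congr (Subgroup.subgroupOfEquivOfLe hG.diagonal_le_group).toEquiv
    rw [← hT]
    let e : T → ↥q.ker := fun t => ⟨⟨MulAut.conj (t : ↥(D.group F)), hG.conj_mem_prsAut t.2⟩, by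
      rw [MonoidHom.mem_ker, hq]
      exact (QuotientGroup.eq_one_iff _).2 ⟨t, rfl⟩⟩
    have he : Function.Bijective e := by
      constructor
      · intro s t h
        have h1 : MulAut.conj (s : ↥(D.group F)) = MulAut.conj (t : ↥(D.group F)) := congrArg (fun z : ↥q.ker => ((z : ↥(prsAut D F)) : MulAut ↥(D.group F))) h
        have h2 : MulAut.conj ((s : ↥(D.group F)) * (t : ↥(D.group F))⁻¹) = 1 := by
          rw [map_mul, map_inv, h1, mul_inv_cancel]
        have h3 : (((s : ↥(D.group F)) * (t : ↥(D.group F))⁻¹ : ↥(D.group F)) : GL D.Idx F) ∈ D.diagonalSubgroup F :=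
          Subgroup.mul_mem _ s.2 (Subgroup.inv_mem _ t.2)
        have h4 := hE.eq_one_of_diagonal_conj hG h3 h2
        exact Subtype.ext (mul_inv_eq_one.1 h4)
      · rintro ⟨⟨θ, hθ⟩, hk⟩
        rw [MonoidHom.mem_ker, hq] at hk
        obtain ⟨x, hx⟩ := (QuotientGroup.eq_one_iff _).1 hk
        have hx' : MulAut.conj x = θ := hx
        subst hx'
        exact ⟨⟨x, hE.mem_diagonal_of_conj hG hB hL hθ⟩, rfl⟩
    exact (Nat.card_congr (Equiv.ofBijective e he)).symm
  have h1 := Subgroup.card_mul_index q.ker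
  have h2 : q.ker.index = Nat.card (Out ↥(D.group F)) := by
    rw [Subgroup.index_ker, MonoidHom.range_eq_top.2 hsurj]
    exact Nat.card_congr Subgroup.topEquiv.toEquiv
  rw [hker, h2, hcount, Nat.card_prod, Nat.card_prod, Nat.card_pi] at h1
  simp only [Finset.prod_const, Finset.card_univ, Fintype.card_fin] at h1
  rw [mul_comm, h1, mul_assoc]

end

section cases

variable {D : ChevalleyDatum} {C : Cert} (hG : Good D C) {F : Type*} [Field F] (hE : Extra D C)

include hG hE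

/-- The automorphisms preserving `U` and `V` are in standard form, given the analysis of the permutations. -/
theorem Extra.hall_cases (hB : Braid D C) {w : List ℕ} {star : ℕ → ℕ} (hLS : LongS D C w star)
    (hcc : simpleCommChk D = true) (ho : orderChk D C = true) [Finite F] {Ls : List (List ℕ)}
    (hs : permSols C D.rank D.rank = Ls) (Pset : Set (Equiv.Perm (Fin D.rank)))
    (hcase : ∀ L ∈ Ls, ∀ (θ₁ : ↥(D.group F) ≃* ↥(D.group F)) (π : Equiv.Perm (Fin D.rank)) (a : Fin D.rank → F) (σ : Fin D.rank → F ≃+* F), (∀ i, a i ≠ 0) →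
      (∀ i t, ((θ₁ (hG.xS (hG.simple_lt i.2) t) : ↥(D.group F)) : GL D.Idx F) = hG.xG (D.simple (π i)) (a i * σ i t)) →
      (∀ i t, ((θ₁ (hG.xS (hG.shp.neg_lt _ (hG.simple_lt i.2)) t) : ↥(D.group F)) : GL D.Idx F) = hG.xG (D.neg (D.simple (π i))) ((a i)⁻¹ * σ i t)) →
      (∀ i : Fin D.rank, ((π i : Fin D.rank) : ℕ) = L.getD i 0) →
      (∀ (i j : Fin D.rank) (c : F), c ≠ 0 → (σ i c) ^ (cartanA D (D.simple (π i)) (D.simple (π j))) = (σ j c) ^ (cartanA D (D.simple i) (D.simple j))) →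
      π ∈ Pset ∧ ∃ τ : F ≃+* F, ∀ i t, σ i t = (τ t) ^ D.graphExp (ringChar F) i (π i)) :
    ∀ θ ∈ prsAut D F, ∃ π ∈ Pset, ∃ a τ, hG.IsStd θ π a τ := by
  rintro θ ⟨hU, hV⟩
  obtain ⟨π, a, σ, ha, h1, h2, h3, h4⟩ := hE.exists_adj hG hB hLS (hG.simple_comm hcc) hU hV
  have hcox := hE.adj_cox hG hB (hG.order_cox ho) ha h3 h4
  have hstar : ∀ (i j : Fin D.rank) (c : F), c ≠ 0 → (σ i c) ^ (cartanA D (D.simple (π i)) (D.simple (π j))) = (σ j c) ^ (cartanA D (D.simple i) (D.simple j)) :=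
    fun i j c hc => hG.adj_star hE ha h1 h3 i j hc
  obtain ⟨L, hL', hπ⟩ := exists_mem_permSols hs π hcox
  obtain ⟨hPset, τ, hτ⟩ := hcase L hL' θ π a σ ha h1 h2 hπ hstar
  refine ⟨π, hPset, fun i => Units.mk0 (a i) (ha i), τ, ?_, ?_⟩
  · intro i t
    rw [h1, hτ, Units.val_mk0]
  · intro i t
    rw [h2, hτ, Units.val_inv_eq_inv_val, Units.val_mk0]

omit hE in
/-- The identity is in standard form. -/
lemma Good.isStd_one : hG.IsStd (1 : MulAut ↥(D.group F)) 1 (fun _ => 1) (RingEquiv.refl F) := by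
  have hexp : ∀ i : ℕ, D.graphExp (ringChar F) i i = 1 := by
    intro i
    unfold ChevalleyDatum.graphExp
    simp
  constructor
  · intro i t
    simp [hexp]
  · intro i t
    simp [hexp]

/-- Graph automorphisms given by signed permutations. -/
lemma GraphCert.exists_prs [Finite F] {P : SP} {ρ : ℕ → ℕ} (h : GraphCert D C P ρ) (hρ : ∀ i (hi : i < D.rank), ρ i < D.rank)
    (hpos : ∀ r < D.nroots, D.nroots / 2 ≤ r → D.nroots / 2 ≤ P.π r) (hneg : ∀ r < D.nroots, r < D.nroots / 2 → P.π r < D.nroots / 2) :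
    ∃ g ∈ prsAut D F, ∀ (i : Fin D.rank) (t : F),
      ((g (hG.xS (hG.simple_lt i.2) t) : ↥(D.group F)) : GL D.Idx F) = hG.xG (D.simple (ρ i)) t ∧
      ((g (hG.xS (hG.shp.neg_lt _ (hG.simple_lt i.2)) t) : ↥(D.group F)) : GL D.Idx F) = hG.xG (D.neg (D.simple (ρ i))) t := by
  have hH : ∀ j' k : Fin D.rank, ∑ j : Fin D.rank, ((P.H j' j : ℤ) : F) * ((P.H j k : ℤ) : F) = if j' = k then 1 else 0 := by
    intro j' k
    have := congrArg (fun z : ℤ => (z : F)) (h.hH j' k)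
    simp only [Int.cast_sum, Int.cast_mul] at this
    rw [this]
    split_ifs <;> simp
  obtain ⟨α, hα⟩ := hG.exists_spAut (F := F) h.good hH
  have hv : ∀ (r : ℕ) (hr : r < D.nroots) (t : F), ((α (hG.xS hr t) : ↥(D.group F)) : GL D.Idx F) = hG.xG (P.π r) (((P.σ r : ℤ) : F) * t) := by
    intro r hr t
    exact (hG.eq_xG_iff _ _ _).1 (hα _ r t hr (hG.xG_val _ _))
  refine ⟨α, ?_, fun i t => ⟨?_, ?_⟩⟩
  · apply hG.mem_prsAut_of_root (θ := α)
    · intro r hr hp t
      rw [hv r hr]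
      apply hG.posUnipotent_mem
      exact (hE.posIff _ (h.good.lt r hr)).2 (hpos r hr ((hE.posIff _ hr).1 hp))
    · intro r hr hp t
      rw [hv r hr]
      apply hG.negUnipotent_mem
      exact (hE.negIff _ (h.good.lt r hr)).2 (hneg r hr ((hE.negIff _ hr).1 hp))
  · obtain ⟨_, h2, _, h4, _⟩ := h.simp i i.2
    rw [hv _ (hG.simple_lt i.2), h2, h4]
    simp
  · obtain ⟨_, _, h3, _, h5⟩ := h.simp i i.2
    rw [hv _ (hG.shp.neg_lt _ (hG.simple_lt i.2)), h3, h5]
    simp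

/-- Graph automorphisms given by a table with exponents. -/
lemma GF.exists_prs [Finite F] {p : ℕ} {T : GF} [Fact p.Prime] [CharP F p] (h : T.chk D p = true) (hB : Braid D C) (hL : HasLong D C)
    (hR : (hG.coverSys F).Rank1)
    (hpos : ∀ r < D.nroots, D.nroots / 2 ≤ r → D.nroots / 2 ≤ T.ρ r) (hneg : ∀ r < D.nroots, r < D.nroots / 2 → T.ρ r < D.nroots / 2) :
    ∃ g ∈ prsAut D F, ∀ (r : ℕ) (hr : r < D.nroots) (t : F),
      ((g (hG.xS hr t) : ↥(D.group F)) : GL D.Idx F) = hG.xG (T.ρ r) (t ^ T.lam r) := by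
  have hperf : ∀ x : F, ∃ y : F, y ^ p = x := by
    have hinj : Function.Injective (frobenius F p) := (frobenius F p).injective
    have hsurj := Finite.injective_iff_surjective.1 hinj
    intro x
    obtain ⟨y, hy⟩ := hsurj x
    exact ⟨y, by rwa [frobenius_def] at hy⟩
  obtain ⟨α, hα⟩ := GF.exists_aut hG h hperf hE hB hL hR
  have hv : ∀ (r : ℕ) (hr : r < D.nroots) (t : F), ((α (hG.xS hr t) : ↥(D.group F)) : GL D.Idx F) = hG.xG (T.ρ r) (t ^ T.lam r) := by
    intro r hr t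
    exact congrArg Subtype.val (hα r hr t)
  refine ⟨α, ?_, hv⟩
  apply hG.mem_prsAut_of_root (θ := α)
  · intro r hr hp t
    rw [hv r hr]
    apply hG.posUnipotent_mem
    exact (hE.posIff _ (GF.chk_spec h hr).1).2 (hpos r hr ((hE.posIff _ hr).1 hp))
  · intro r hr hp t
    rw [hv r hr]
    apply hG.negUnipotent_mem
    exact (hE.negIff _ (GF.chk_spec h hr).1).2 (hneg r hr ((hE.negIff _ hr).1 hp))

end cases

end CfsgLib.Chev
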