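/-
The outer automorphism groups of the Chevalley groups: the analysis of the individual types.
-/
import Cfsg.Agent.Lib.Chev.OutCount
import Cfsg.Agent.Lib.Chev.AutAll

set_option autoImplicit false
set_option maxRecDepth 100000

namespace CfsgLib.Chev

open Cfsg Cfsg.Lie Cfsg.Lie.ChevalleyDatum CfsgLib.BN

/-- The permutation given by a list. -/
noncomputable def listPerm (n : ℕ) (L : List ℕ) (h : (∀ i < n, L.getD i 0 < n) ∧ ∀ i < n, ∀ j < n, L.getD i 0 = L.getD j 0 → i = j) : Equiv.Perm (Fin n) :=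
  Equiv.ofBijective (fun i => ⟨L.getD i 0, h.1 i i.2⟩) (Finite.injective_iff_bijective.1 (fun i j e => Fin.ext (h.2 i i.2 j j.2 (congrArg Fin.val e))))

@[simp] lemma listPerm_val (n : ℕ) (L : List ℕ) (h : (∀ i < n, L.getD i 0 < n) ∧ ∀ i < n, ∀ j < n, L.getD i 0 = L.getD j 0 → i = j) (i : Fin n) :
    ((listPerm n L h i : Fin n) : ℕ) = L.getD i 0 := rfl

lemma eq_listPerm {n : ℕ} {L : List ℕ} {h : (∀ i < n, L.getD i 0 < n) ∧ ∀ i < n, ∀ j < n, L.getD i 0 = L.getD j 0 → i = j} {π : Equiv.Perm (Fin n)}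
    (hπ : ∀ i : Fin n, ((π i : Fin n) : ℕ) = L.getD i 0) : π = listPerm n L h :=
  Equiv.ext fun i => Fin.ext (hπ i)

lemma eq_one_of_list {n : ℕ} {L : List ℕ} {π : Equiv.Perm (Fin n)}
    (hπ : ∀ i : Fin n, ((π i : Fin n) : ℕ) = L.getD i 0) (h : ∀ i < n, L.getD i 0 = i) : π = 1 :=
  Equiv.ext fun i => Fin.ext ((hπ i).trans (h i i.2))

lemma listPerm_ne_one {n : ℕ} {L : List ℕ} {h : (∀ i < n, L.getD i 0 < n) ∧ ∀ i < n, ∀ j < n, L.getD i 0 = L.getD j 0 → i = j}
    (hne : ∃ i, ∃ _ : i < n, L.getD i 0 ≠ i) : (1 : Equiv.Perm (Fin n)) ≠ listPerm n L h := by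
  obtain ⟨i, hi, hn⟩ := hne
  intro e
  apply hn
  have := congrArg (fun π : Equiv.Perm (Fin n) => ((π ⟨i, hi⟩ : Fin n) : ℕ)) e
  simpa using this.symm

lemma card_gal {F : Type*} [Field F] [Fintype F] (p f : ℕ) [Fact p.Prime] [CharP F p] (hF : Fintype.card F = p ^ f) : Nat.card (F ≃+* F) = f := by
  haveI : Algebra (ZMod p) F := ZMod.algebra F p
  have hRE : Nat.card (F ≃+* F) = Nat.card (F ≃ₐ[ZMod p] F) := by
    apply Nat.card_congr
    refine ⟨fun σ => AlgEquiv.ofRingEquiv (f := σ) (fun r => ?_), fun σ => σ.toRingEquiv, fun σ => ?_, fun σ => ?_⟩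
    · have e : (σ : F →+* F).comp (algebraMap (ZMod p) F) = algebraMap (ZMod p) F := Subsingleton.elim _ _
      exact congrArg (fun z : ZMod p →+* F => z r) e
    · ext x
      rfl
    · ext x
      rfl
  rw [hRE]
  haveI : FiniteDimensional (ZMod p) F := inferInstance
  rw [IsGalois.card_aut_eq_finrank]
  have h1 := Module.card_eq_pow_finrank (K := ZMod p) (V := F)
  rw [hF, ZMod.card] at h1
  exact (Nat.pow_right_injective (Fact.out : p.Prime).two_le h1).symm

section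

variable {F : Type*} [Field F] [Finite F]

/-- The case of a permutation that does not change the root lengths. -/
lemma Good.isStd_of_noSwap {D : ChevalleyDatum} {C : Cert} (hG : Good D C) {L : List ℕ} (hchk : noSwapChk D L = true)
    {π : Equiv.Perm (Fin D.rank)} (hπ : ∀ i : Fin D.rank, ((π i : Fin D.rank) : ℕ) = L.getD i 0) {g : ↥(D.group F) ≃* ↥(D.group F)}
    (hg : ∀ (i : Fin D.rank) (t : F),
      ((g (hG.xS (hG.simple_lt i.2) t) : ↥(D.group F)) : GL D.Idx F) = hG.xG (D.simple (L.getD i 0)) t ∧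
      ((g (hG.xS (hG.shp.neg_lt _ (hG.simple_lt i.2)) t) : ↥(D.group F)) : GL D.Idx F) = hG.xG (D.neg (D.simple (L.getD i 0))) t) :
    hG.IsStd g π (fun _ => 1) (RingEquiv.refl F) := by
  simp only [noSwapChk, List.all_eq_true, List.mem_range, Bool.and_eq_true, beq_iff_eq] at hchk
  have hexp : ∀ (c : ℕ) (i : Fin D.rank), D.graphExp c i (π i) = 1 := by
    intro c i
    unfold ChevalleyDatum.graphExp
    rw [hπ i, (hchk i i.2).1]
    simp
  constructor
  · intro i t
    rw [hexp, (hg i t).1, hπ i]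
    simp
  · intro i t
    rw [hexp, (hg i t).2, hπ i]
    simp

/-- The graph automorphisms in characteristics two and three. -/
lemma GF.isStd {D : ChevalleyDatum} {C : Cert} (hG : Good D C) (hE : Extra D C) {p : ℕ} {T : GF} [Fact p.Prime] [CharP F p] (h : T.chk D p = true) (hB : Braid D C) (hL : HasLong D C)
    (hR : (hG.coverSys F).Rank1)
    (hpos : ∀ r < D.nroots, D.nroots / 2 ≤ r → D.nroots / 2 ≤ T.ρ r) (hneg : ∀ r < D.nroots, r < D.nroots / 2 → T.ρ r < D.nroots / 2)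
    {P : List (ℕ × ℕ)}
    (hs : ∀ i < D.rank, T.ρ (D.simple i) = D.simple (P.getD i (0, 1)).1 ∧ T.lam (D.simple i) = (P.getD i (0, 1)).2 ∧
      T.ρ (D.neg (D.simple i)) = D.neg (D.simple (P.getD i (0, 1)).1) ∧ T.lam (D.neg (D.simple i)) = (P.getD i (0, 1)).2)
    (hexp : ∀ i < D.rank, D.graphExp p i (P.getD i (0, 1)).1 = (P.getD i (0, 1)).2)
    {π : Equiv.Perm (Fin D.rank)} (hπ : ∀ i : Fin D.rank, ((π i : Fin D.rank) : ℕ) = (P.getD i (0, 1)).1) :
    ∃ g ∈ prsAut D F, hG.IsStd g π (fun _ => 1) (RingEquiv.refl F) := by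
  obtain ⟨g, hg, hv⟩ := GF.exists_prs hG hE h hB hL hR hpos hneg
  refine ⟨g, hg, ?_⟩
  have hch : ringChar F = p := ringChar.eq F p
  have hexp' : ∀ i : Fin D.rank, D.graphExp (ringChar F) i (π i) = (P.getD i (0, 1)).2 := by
    intro i
    rw [hch, hπ i]
    exact hexp i i.2
  constructor
  · intro i t
    rw [hv _ (hG.simple_lt i.2), hexp', hπ i, (hs i i.2).1, (hs i i.2).2.1]
    simp
  · intro i t
    rw [hv _ (hG.shp.neg_lt _ (hG.simple_lt i.2)), hexp', hπ i, (hs i i.2).2.2.1, (hs i i.2).2.2.2]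
    simp

def PsetE8 (F : Type*) [Field F] : Set (Equiv.Perm (Fin chevE8.rank)) := {1}

theorem hexE8 : ∀ π ∈ PsetE8 F, ∃ g ∈ prsAut chevE8 F, TE8.good.IsStd g π (fun _ => 1) (RingEquiv.refl F) := by
  intro π hπ
  rw [Set.mem_singleton_iff.1 hπ]
  exact ⟨1, Subgroup.one_mem _, TE8.good.isStd_one⟩

theorem hallE8 : ∀ θ ∈ prsAut chevE8 F, ∃ π ∈ PsetE8 F, ∃ a τ, TE8.good.IsStd θ π a τ := by
  apply TE8.extra.hall_cases TE8.good (F := F) TE8.braid longSE8 (by decide +kernel) (by decide +kernel) (Ls := [[0, 1, 2, 3, 4, 5, 6, 7]]) (by decide +kernel)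
  intro L hL θ₁ π a σ ha h1 h2 hπ hstar
  simp only [List.mem_singleton] at hL
  subst hL
  obtain ⟨_, τ, _, hτ⟩ := TE8.good.input_noswap TE8.conn (by decide +kernel) (by decide +kernel) ((HasGraph1.id _ _).congr (by decide +kernel)) hπ hstar
  exact ⟨Set.mem_singleton_iff.2 (eq_one_of_list hπ (by decide +kernel)), τ, hτ⟩

theorem outMainE8 :
    Nat.card (Out ↥(chevE8.group F)) * Nat.card ↥(chevE8.diagonalSubgroup F) =
      (Nat.card Fˣ) ^ chevE8.rank * Nat.card (F ≃+* F) := by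
  have h := TE8.extra.out_card TE8.good (F := F) TE8.braid TE8.long TE8.chainStep (by decide) (PsetE8 F) hexE8 hallE8
  have hc : Nat.card ↥(PsetE8 F) = 1 := by
    unfold PsetE8
    rw [Nat.card_coe_set_eq, Set.ncard_singleton]
  rw [hc, mul_one] at h
  exact h

def PsetE7 (F : Type*) [Field F] : Set (Equiv.Perm (Fin chevE7.rank)) := {1}

theorem hexE7 : ∀ π ∈ PsetE7 F, ∃ g ∈ prsAut chevE7 F, TE7.good.IsStd g π (fun _ => 1) (RingEquiv.refl F) := by
  intro π hπ
  rw [Set.mem_singleton_iff.1 hπ]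
  exact ⟨1, Subgroup.one_mem _, TE7.good.isStd_one⟩

theorem hallE7 : ∀ θ ∈ prsAut chevE7 F, ∃ π ∈ PsetE7 F, ∃ a τ, TE7.good.IsStd θ π a τ := by
  apply TE7.extra.hall_cases TE7.good (F := F) TE7.braid longSE7 (by decide +kernel) (by decide +kernel) (Ls := [[0, 1, 2, 3, 4, 5, 6]]) (by decide +kernel)
  intro L hL θ₁ π a σ ha h1 h2 hπ hstar
  simp only [List.mem_singleton] at hL
  subst hL
  obtain ⟨_, τ, _, hτ⟩ := TE7.good.input_noswap TE7.conn (by decide +kernel) (by decide +kernel) ((HasGraph1.id _ _).congr (by decide +kernel)) hπ hstar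
  exact ⟨Set.mem_singleton_iff.2 (eq_one_of_list hπ (by decide +kernel)), τ, hτ⟩

theorem outMainE7 :
    Nat.card (Out ↥(chevE7.group F)) * Nat.card ↥(chevE7.diagonalSubgroup F) =
      (Nat.card Fˣ) ^ chevE7.rank * Nat.card (F ≃+* F) := by
  have h := TE7.extra.out_card TE7.good (F := F) TE7.braid TE7.long TE7.chainStep (by decide) (PsetE7 F) hexE7 hallE7
  have hc : Nat.card ↥(PsetE7 F) = 1 := by
    unfold PsetE7
    rw [Nat.card_coe_set_eq, Set.ncard_singleton]
  rw [hc, mul_one] at h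
  exact h

noncomputable def sE6 : Equiv.Perm (Fin chevE6.rank) := listPerm chevE6.rank [5, 1, 4, 3, 2, 0] (by decide +kernel)

def PsetE6 (F : Type*) [Field F] : Set (Equiv.Perm (Fin chevE6.rank)) := {1, sE6}

theorem hexE6 : ∀ π ∈ PsetE6 F, ∃ g ∈ prsAut chevE6 F, TE6.good.IsStd g π (fun _ => 1) (RingEquiv.refl F) := by
  intro π hπ
  rcases hπ with rfl | hπ
  · exact ⟨1, Subgroup.one_mem _, TE6.good.isStd_one⟩
  · rw [Set.mem_singleton_iff.1 hπ]
    obtain ⟨g, hg, hv⟩ := spE6.cert.exists_prs TE6.good TE6.extra (F := F) (by decide +kernel) (by decide +kernel) (by decide +kernel)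
    exact ⟨g, hg, TE6.good.isStd_of_noSwap (L := [5, 1, 4, 3, 2, 0]) (by decide +kernel) (fun i => rfl) hv⟩

theorem hallE6 : ∀ θ ∈ prsAut chevE6 F, ∃ π ∈ PsetE6 F, ∃ a τ, TE6.good.IsStd θ π a τ := by
  apply TE6.extra.hall_cases TE6.good (F := F) TE6.braid longSE6 (by decide +kernel) (by decide +kernel) (Ls := [[0, 1, 2, 3, 4, 5], [5, 1, 4, 3, 2, 0]]) (by decide +kernel)
  intro L hL θ₁ π a σ ha h1 h2 hπ hstar
  simp only [List.mem_cons, List.not_mem_nil, or_false] at hL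
  rcases hL with rfl | rfl
  · obtain ⟨_, τ, _, hτ⟩ := TE6.good.input_noswap TE6.conn (by decide +kernel) (by decide +kernel) ((HasGraph1.id _ _).congr (by decide +kernel)) hπ hstar
    exact ⟨Or.inl (eq_one_of_list hπ (by decide +kernel)), τ, hτ⟩
  · obtain ⟨_, τ, _, hτ⟩ := TE6.good.input_noswap TE6.conn (by decide +kernel) (by decide +kernel) (spE6.cert.exists_aut TE6.good) hπ hstar
    exact ⟨Or.inr (Set.mem_singleton_iff.2 (eq_listPerm hπ)), τ, hτ⟩

theorem outMainE6 :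
    Nat.card (Out ↥(chevE6.group F)) * Nat.card ↥(chevE6.diagonalSubgroup F) =
      (Nat.card Fˣ) ^ chevE6.rank * 2 * Nat.card (F ≃+* F) := by
  have h := TE6.extra.out_card TE6.good (F := F) TE6.braid TE6.long TE6.chainStep (by decide) (PsetE6 F) hexE6 hallE6
  have hc : Nat.card ↥(PsetE6 F) = 2 := by
    have hne : (1 : Equiv.Perm (Fin chevE6.rank)) ≠ sE6 := listPerm_ne_one (n := chevE6.rank) (L := [5, 1, 4, 3, 2, 0]) ⟨0, by decide, by decide⟩
    unfold PsetE6
    rw [Nat.card_coe_set_eq, Set.ncard_pair hne]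
  rw [hc] at h
  exact h

noncomputable def sF4 : Equiv.Perm (Fin chevF4.rank) := listPerm chevF4.rank [3, 2, 1, 0] (by decide +kernel)

def PsetF4 (F : Type*) [Field F] : Set (Equiv.Perm (Fin chevF4.rank)) := {π | π = 1 ∨ ((2 : F) = 0 ∧ π = sF4)}

theorem hexF4 : ∀ π ∈ PsetF4 F, ∃ g ∈ prsAut chevF4 F, TF4.good.IsStd g π (fun _ => 1) (RingEquiv.refl F) := by
  rintro π (rfl | ⟨h20, rfl⟩)
  · exact ⟨1, Subgroup.one_mem _, TF4.good.isStd_one⟩
  · haveI : CharP F 2 := CharTwo.of_one_ne_zero_of_two_eq_zero one_ne_zero h20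
    haveI : Fact (Nat.Prime 2) := ⟨Nat.prime_two⟩
    exact GF.isStd TF4.good TF4.extra (p := 2) (P := [(3, 2), (2, 2), (1, 1), (0, 1)]) gfF4_chk TF4.braid TF4.long (TF4.rank1 _) (by decide +kernel) (by decide +kernel) gfF4_simple (by decide +kernel)
      (fun i => (by decide +kernel : ∀ i < chevF4.rank, ([3, 2, 1, 0] : List ℕ).getD i 0 = (([(3, 2), (2, 2), (1, 1), (0, 1)] : List (ℕ × ℕ)).getD i (0, 1)).1) i i.2)

theorem hallF4 : ∀ θ ∈ prsAut chevF4 F, ∃ π ∈ PsetF4 F, ∃ a τ, TF4.good.IsStd θ π a τ := by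
  apply TF4.extra.hall_cases TF4.good (F := F) TF4.braid longSF4 (by decide +kernel) (by decide +kernel) (Ls := [[0, 1, 2, 3], [3, 2, 1, 0]]) (by decide +kernel)
  intro L hL θ₁ π a σ ha h1 h2 hπ hstar
  simp only [List.mem_cons, List.not_mem_nil, or_false] at hL
  rcases hL with rfl | rfl
  · obtain ⟨_, τ, _, hτ⟩ := TF4.good.input_noswap TF4.conn (by decide +kernel) (by decide +kernel) ((HasGraph1.id _ _).congr (by decide +kernel)) hπ hstar
    exact ⟨Or.inl (eq_one_of_list hπ (by decide +kernel)), τ, hτ⟩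
  · let i0 : Fin chevF4.rank := ⟨0, by decide⟩
    let i1 : Fin chevF4.rank := ⟨1, by decide⟩
    let i2 : Fin chevF4.rank := ⟨2, by decide⟩
    let i3 : Fin chevF4.rank := ⟨3, by decide⟩
    have h23 : σ i2 = σ i3 := by
      apply ringEquiv_eq_of_inv
      intro c hc
      have := hstar i2 i3 c hc
      rw [hπ i2, hπ i3] at this
      have e1 : cartanA chevF4 (chevF4.simple 1) (chevF4.simple 0) = -1 := by decide +kernel
      have e2 : cartanA chevF4 (chevF4.simple 2) (chevF4.simple 3) = -1 := by decide +kernel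
      exact (by simpa [i2, i3, e1, e2] using this)
    have h01 : σ i0 = σ i1 := by
      apply ringEquiv_eq_of_inv
      intro c hc
      have := hstar i0 i1 c hc
      rw [hπ i0, hπ i1] at this
      have e1 : cartanA chevF4 (chevF4.simple 3) (chevF4.simple 2) = -1 := by decide +kernel
      have e2 : cartanA chevF4 (chevF4.simple 0) (chevF4.simple 1) = -1 := by decide +kernel
      exact (by simpa [i0, i1, e1, e2] using this)
    have h12 : ∀ c, σ i1 c = (σ i2 c) ^ 2 := by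
      apply ringEquiv_pow_of_inv _ _ 2 (by norm_num)
      intro c hc
      have := hstar i1 i2 c hc
      rw [hπ i1, hπ i2] at this
      have e1 : cartanA chevF4 (chevF4.simple 2) (chevF4.simple 1) = -1 := by decide +kernel
      have e2 : cartanA chevF4 (chevF4.simple 1) (chevF4.simple 2) = -2 := by decide +kernel
      exact (by simpa [i1, i2, e1, e2] using this)
    have h20 := two_eq_zero_of_sq _ _ h12
    haveI : CharP F 2 := CharTwo.of_one_ne_zero_of_two_eq_zero one_ne_zero h20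
    haveI : Fact (Nat.Prime 2) := ⟨Nat.prime_two⟩
    obtain ⟨_, τ, _, hτ⟩ := TF4.good.input_swap TF4.extra (p := 2) (P := [(3, 2), (2, 2), (1, 1), (0, 1)]) gfF4_chk TF4.braid TF4.long (TF4.rank1 _) gfF4_simple (by decide +kernel) (by decide +kernel) (π := π) (σ := σ)
      (fun i => (hπ i).trans ((by decide +kernel : ∀ i < chevF4.rank, ([3, 2, 1, 0] : List ℕ).getD i 0 = (([(3, 2), (2, 2), (1, 1), (0, 1)] : List (ℕ × ℕ)).getD i (0, 1)).1) i i.2))
      (σ i3) (by
        rintro ⟨i, hi⟩ t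
        have hi' : i < 4 := hi
        interval_cases i
        · show σ i0 t = _
          rw [h01, h12, h23]
          rfl
        · show σ i1 t = _
          rw [h12, h23]
          rfl
        · show σ i2 t = _
          rw [h23]
          exact (pow_one _).symm
        · exact (pow_one _).symm)
    exact ⟨Or.inr ⟨h20, eq_listPerm hπ⟩, τ, hτ⟩

theorem outMainF4 :
    Nat.card (Out ↥(chevF4.group F)) * Nat.card ↥(chevF4.diagonalSubgroup F) =
      (Nat.card Fˣ) ^ chevF4.rank * Nat.card {π : Equiv.Perm (Fin chevF4.rank) | π = 1 ∨ ((2 : F) = 0 ∧ π = sF4)} * Nat.card (F ≃+* F) :=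
  TF4.extra.out_card TF4.good (F := F) TF4.braid TF4.long TF4.chainStep (by decide) (PsetF4 F) hexF4 hallF4

noncomputable def sB2 : Equiv.Perm (Fin chevB2.rank) := listPerm chevB2.rank [1, 0] (by decide +kernel)

def PsetB2 (F : Type*) [Field F] : Set (Equiv.Perm (Fin chevB2.rank)) := {π | π = 1 ∨ ((2 : F) = 0 ∧ π = sB2)}

theorem hexB2 : ∀ π ∈ PsetB2 F, ∃ g ∈ prsAut chevB2 F, TB2.good.IsStd g π (fun _ => 1) (RingEquiv.refl F) := by
  rintro π (rfl | ⟨h20, rfl⟩)
  · exact ⟨1, Subgroup.one_mem _, TB2.good.isStd_one⟩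
  · haveI : CharP F 2 := CharTwo.of_one_ne_zero_of_two_eq_zero one_ne_zero h20
    haveI : Fact (Nat.Prime 2) := ⟨Nat.prime_two⟩
    exact GF.isStd TB2.good TB2.extra (p := 2) (P := [(1, 2), (0, 1)]) gfB2_chk TB2.braid TB2.long (TB2.rank1 _) (by decide +kernel) (by decide +kernel) gfB2_simple (by decide +kernel)
      (fun i => (by decide +kernel : ∀ i < chevB2.rank, ([1, 0] : List ℕ).getD i 0 = (([(1, 2), (0, 1)] : List (ℕ × ℕ)).getD i (0, 1)).1) i i.2)

theorem hallB2 : ∀ θ ∈ prsAut chevB2 F, ∃ π ∈ PsetB2 F, ∃ a τ, TB2.good.IsStd θ π a τ := by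
  apply TB2.extra.hall_cases TB2.good (F := F) TB2.braid longSB2 (by decide +kernel) (by decide +kernel) (Ls := [[0, 1], [1, 0]]) (by decide +kernel)
  intro L hL θ₁ π a σ ha h1 h2 hπ hstar
  simp only [List.mem_cons, List.not_mem_nil, or_false] at hL
  rcases hL with rfl | rfl
  · obtain ⟨_, τ, _, hτ⟩ := TB2.good.input_noswap TB2.conn (by decide +kernel) (by decide +kernel) ((HasGraph1.id _ _).congr (by decide +kernel)) hπ hstar
    exact ⟨Or.inl (eq_one_of_list hπ (by decide +kernel)), τ, hτ⟩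
  · let i0 : Fin chevB2.rank := ⟨0, by decide⟩
    let i1 : Fin chevB2.rank := ⟨1, by decide⟩
    have h01 : ∀ c, σ i0 c = (σ i1 c) ^ 2 := by
      apply ringEquiv_pow_of_inv _ _ 2 (by norm_num)
      intro c hc
      have := hstar i0 i1 c hc
      rw [hπ i0, hπ i1] at this
      have e1 : cartanA chevB2 (chevB2.simple 1) (chevB2.simple 0) = -1 := by decide +kernel
      have e2 : cartanA chevB2 (chevB2.simple 0) (chevB2.simple 1) = -2 := by decide +kernel
      exact (by simpa [i0, i1, e1, e2] using this)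
    have h20 := two_eq_zero_of_sq _ _ h01
    haveI : CharP F 2 := CharTwo.of_one_ne_zero_of_two_eq_zero one_ne_zero h20
    haveI : Fact (Nat.Prime 2) := ⟨Nat.prime_two⟩
    obtain ⟨_, τ, _, hτ⟩ := TB2.good.input_swap TB2.extra (p := 2) (P := [(1, 2), (0, 1)]) gfB2_chk TB2.braid TB2.long (TB2.rank1 _) gfB2_simple (by decide +kernel) (by decide +kernel) (π := π) (σ := σ)
      (fun i => (hπ i).trans ((by decide +kernel : ∀ i < chevB2.rank, ([1, 0] : List ℕ).getD i 0 = (([(1, 2), (0, 1)] : List (ℕ × ℕ)).getD i (0, 1)).1) i i.2))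
      (σ i1) (by
        rintro ⟨i, hi⟩ t
        have hi' : i < 2 := hi
        interval_cases i
        · exact h01 t
        · exact (pow_one _).symm)
    exact ⟨Or.inr ⟨h20, eq_listPerm hπ⟩, τ, hτ⟩

noncomputable def sG2 : Equiv.Perm (Fin chevG2.rank) := listPerm chevG2.rank [1, 0] (by decide +kernel)

def PsetG2 (F : Type*) [Field F] : Set (Equiv.Perm (Fin chevG2.rank)) := {π | π = 1 ∨ (((3 : ℕ) : F) = 0 ∧ π = sG2)}

theorem hexG2 : ∀ π ∈ PsetG2 F, ∃ g ∈ prsAut chevG2 F, TG2.good.IsStd g π (fun _ => 1) (RingEquiv.refl F) := by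
  rintro π (rfl | ⟨h30, rfl⟩)
  · exact ⟨1, Subgroup.one_mem _, TG2.good.isStd_one⟩
  · haveI : CharP F 3 := charP_of_prime_cast Nat.prime_three h30
    haveI : Fact (Nat.Prime 3) := ⟨Nat.prime_three⟩
    exact GF.isStd TG2.good TG2.extra (p := 3) (P := [(1, 3), (0, 1)]) gfG2_chk TG2.braid TG2.long (TG2.rank1 _) (by decide +kernel) (by decide +kernel) gfG2_simple (by decide +kernel)
      (fun i => (by decide +kernel : ∀ i < chevG2.rank, ([1, 0] : List ℕ).getD i 0 = (([(1, 3), (0, 1)] : List (ℕ × ℕ)).getD i (0, 1)).1) i i.2)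

theorem hallG2 : ∀ θ ∈ prsAut chevG2 F, ∃ π ∈ PsetG2 F, ∃ a τ, TG2.good.IsStd θ π a τ := by
  apply TG2.extra.hall_cases TG2.good (F := F) TG2.braid longSG2 (by decide +kernel) (by decide +kernel) (Ls := [[0, 1], [1, 0]]) (by decide +kernel)
  intro L hL θ₁ π a σ ha h1 h2 hπ hstar
  simp only [List.mem_cons, List.not_mem_nil, or_false] at hL
  rcases hL with rfl | rfl
  · obtain ⟨_, τ, _, hτ⟩ := TG2.good.input_noswap TG2.conn (by decide +kernel) (by decide +kernel) ((HasGraph1.id _ _).congr (by decide +kernel)) hπ hstar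
    exact ⟨Or.inl (eq_one_of_list hπ (by decide +kernel)), τ, hτ⟩
  · let i0 : Fin chevG2.rank := ⟨0, by decide⟩
    let i1 : Fin chevG2.rank := ⟨1, by decide⟩
    have h01 : ∀ c, σ i0 c = (σ i1 c) ^ 3 := by
      apply ringEquiv_pow_of_inv _ _ 3 (by norm_num)
      intro c hc
      have := hstar i0 i1 c hc
      rw [hπ i0, hπ i1] at this
      have e1 : cartanA chevG2 (chevG2.simple 1) (chevG2.simple 0) = -1 := by decide +kernel
      have e2 : cartanA chevG2 (chevG2.simple 0) (chevG2.simple 1) = -3 := by decide +kernel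
      exact (by simpa [i0, i1, e1, e2] using this)
    by_cases h20 : (2 : F) = 0
    · exfalso
      haveI : CharP F 2 := CharTwo.of_one_ne_zero_of_two_eq_zero one_ne_zero h20
      have h01' := eq_zero_or_one_of_cube _ _ h01 h20
      have hone : ∀ x : F, x ≠ 0 → x = 1 := fun x hx => (h01' x).resolve_left hx
      have hp0 : chevG2.simple 0 < chevG2.nroots := by decide
      have hp1 : chevG2.simple 1 < chevG2.nroots := by decide
      have hn0 : chevG2.neg (chevG2.simple 0) < chevG2.nroots := by decide +kernel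
      have hn1 : chevG2.neg (chevG2.simple 1) < chevG2.nroots := by decide +kernel
      have hG := TG2.good
      have eπ0 : π i0 = i1 := Fin.ext (hπ i0)
      have eπ1 : π i1 = i0 := Fin.ext (hπ i1)
      have ea : ∀ i, a i = 1 := fun i => hone _ (ha i)
      have eA : θ₁ (hG.xS hp0 (1 : F)) = hG.xS hp1 1 := by
        apply Subtype.ext
        have := h1 i0 1
        rw [eπ0, ea, map_one, one_mul] at this
        exact this
      have eB : θ₁ (hG.xS hp1 (1 : F)) = hG.xS hp0 1 := by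
        apply Subtype.ext
        have := h1 i1 1
        rw [eπ1, ea, map_one, one_mul] at this
        exact this
      have eC : θ₁ (hG.xS hn0 (1 : F)) = hG.xS hn1 1 := by
        apply Subtype.ext
        have := h2 i0 1
        rw [eπ0, ea, map_one, inv_one, one_mul] at this
        exact this
      obtain ⟨w1, w2⟩ := g2_two_word (F := F)
      have hv : ∀ r (hr : r < chevG2.nroots), (((hG.xS hr (1 : F) : ↥(chevG2.group F)) : GL chevG2.Idx F) : Matrix chevG2.Idx chevG2.Idx F) = chevG2.x F r 1 := by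
        intro r hr
        exact hG.xG_val r 1
      have e2 : (hG.xS hp1 (1 : F) * hG.xS hp0 1 * hG.xS hn1 1) ^ 6 = 1 := by
        apply Subtype.ext
        apply Units.ext
        show ((((hG.xS hp1 (1 : F) : ↥(chevG2.group F)) : GL chevG2.Idx F) : Matrix chevG2.Idx chevG2.Idx F) * (((hG.xS hp0 (1 : F) : ↥(chevG2.group F)) : GL chevG2.Idx F) : Matrix chevG2.Idx chevG2.Idx F) * (((hG.xS hn1 (1 : F) : ↥(chevG2.group F)) : GL chevG2.Idx F) : Matrix chevG2.Idx chevG2.Idx F)) ^ 6 = 1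
        rw [hv, hv, hv]
        exact w1
      have e1 : (hG.xS hp0 (1 : F) * hG.xS hp1 1 * hG.xS hn0 1) ^ 6 = 1 := by
        apply θ₁.injective
        rw [map_pow, map_mul, map_mul, eA, eB, eC, e2, map_one]
      apply w2
      have e3 := congrArg (fun z : ↥(chevG2.group F) => ((z : GL chevG2.Idx F) : Matrix chevG2.Idx chevG2.Idx F)) e1
      have e4 : ((((hG.xS hp0 (1 : F) : ↥(chevG2.group F)) : GL chevG2.Idx F) : Matrix chevG2.Idx chevG2.Idx F) * (((hG.xS hp1 (1 : F) : ↥(chevG2.group F)) : GL chevG2.Idx F) : Matrix chevG2.Idx chevG2.Idx F) * (((hG.xS hn0 (1 : F) : ↥(chevG2.group F)) : GL chevG2.Idx F) : Matrix chevG2.Idx chevG2.Idx F)) ^ 6 = 1 := e3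
      rw [hv, hv, hv] at e4
      exact e4
    · have h30 : ((3 : ℕ) : F) = 0 := by
        have h6 := six_eq_zero_of_cube _ _ h01
        apply mul_left_cancel₀ h20
        push_cast
        linear_combination h6
      haveI : CharP F 3 := charP_of_prime_cast Nat.prime_three h30
      haveI : Fact (Nat.Prime 3) := ⟨Nat.prime_three⟩
      obtain ⟨_, τ, _, hτ⟩ := TG2.good.input_swap TG2.extra (p := 3) (P := [(1, 3), (0, 1)]) gfG2_chk TG2.braid TG2.long (TG2.rank1 _) gfG2_simple (by decide +kernel) (by decide +kernel) (π := π) (σ := σ)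
        (fun i => (hπ i).trans ((by decide +kernel : ∀ i < chevG2.rank, ([1, 0] : List ℕ).getD i 0 = (([(1, 3), (0, 1)] : List (ℕ × ℕ)).getD i (0, 1)).1) i i.2))
        (σ i1) (by
          rintro ⟨i, hi⟩ t
          have hi' : i < 2 := hi
          interval_cases i
          · exact h01 t
          · exact (pow_one _).symm)
      exact ⟨Or.inr ⟨h30, eq_listPerm hπ⟩, τ, hτ⟩

theorem outMainG2 :
    Nat.card (Out ↥(chevG2.group F)) * Nat.card ↥(chevG2.diagonalSubgroup F) =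
      (Nat.card Fˣ) ^ chevG2.rank * Nat.card {π : Equiv.Perm (Fin chevG2.rank) | π = 1 ∨ (((3 : ℕ) : F) = 0 ∧ π = sG2)} * Nat.card (F ≃+* F) :=
  TG2.extra.out_card TG2.good (F := F) TG2.braid TG2.long TG2.chainStep (by decide) (PsetG2 F) hexG2 hallG2

/-- The graph automorphisms preserving `U` and `V`. -/
def HasGraph2 {D : ChevalleyDatum} {C : Cert} (hG : Good D C) (F : Type*) [Field F] (ρ : ℕ → ℕ) : Prop :=
  ∃ g ∈ prsAut D F, ∀ (i : Fin D.rank) (t : F),
      ((g (hG.xS (hG.simple_lt i.2) t) : ↥(D.group F)) : GL D.Idx F) = hG.xG (D.simple (ρ i)) t ∧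
      ((g (hG.xS (hG.shp.neg_lt _ (hG.simple_lt i.2)) t) : ↥(D.group F)) : GL D.Idx F) = hG.xG (D.neg (D.simple (ρ i))) t

lemma HasGraph2.comp {D : ChevalleyDatum} {C : Cert} {hG : Good D C} {ρ₁ ρ₂ : ℕ → ℕ} (h₁ : HasGraph2 hG F ρ₁) (h₂ : HasGraph2 hG F ρ₂)
    (hρ : ∀ i < D.rank, ρ₁ i < D.rank) : HasGraph2 hG F (fun i => ρ₂ (ρ₁ i)) := by
  obtain ⟨g₁, hg₁, hv₁⟩ := h₁
  obtain ⟨g₂, hg₂, hv₂⟩ := h₂
  refine ⟨g₂ * g₁, Subgroup.mul_mem _ hg₂ hg₁, fun i t => ⟨?_, ?_⟩⟩
  · have e : g₁ (hG.xS (hG.simple_lt i.2) t) = hG.xS (hG.simple_lt (hρ i i.2)) t := Subtype.ext (hv₁ i t).1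
    show ((g₂ (g₁ _) : ↥(D.group F)) : GL D.Idx F) = _
    rw [e]
    exact (hv₂ ⟨_, hρ i i.2⟩ t).1
  · have e : g₁ (hG.xS (hG.shp.neg_lt _ (hG.simple_lt i.2)) t) = hG.xS (hG.shp.neg_lt _ (hG.simple_lt (hρ i i.2))) t := Subtype.ext (hv₁ i t).2
    show ((g₂ (g₁ _) : ↥(D.group F)) : GL D.Idx F) = _
    rw [e]
    exact (hv₂ ⟨_, hρ i i.2⟩ t).2

lemma HasGraph2.congr {D : ChevalleyDatum} {C : Cert} {hG : Good D C} {ρ₁ ρ₂ : ℕ → ℕ} (h₁ : HasGraph2 hG F ρ₁) (h : ∀ i < D.rank, ρ₁ i = ρ₂ i) : HasGraph2 hG F ρ₂ := by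
  obtain ⟨g₁, hg₁, hv₁⟩ := h₁
  refine ⟨g₁, hg₁, fun i t => ?_⟩
  rw [← h i i.2]
  exact hv₁ i t

lemma hasGraph2D4 (L : List ℕ) (hL : L ∈ permSols TD4.cert 4 4) : HasGraph2 TD4.good F (fun i => L.getD i 0) := by
  have a : HasGraph2 TD4.good F (fun i => ([2, 1, 0, 3] : List ℕ).getD i 0) := spD4a.cert.exists_prs TD4.good TD4.extra (F := F) (by decide +kernel) (by decide +kernel) (by decide +kernel)
  have b : HasGraph2 TD4.good F (fun i => ([3, 1, 2, 0] : List ℕ).getD i 0) := spD4b.cert.exists_prs TD4.good TD4.extra (F := F) (by decide +kernel) (by decide +kernel) (by decide +kernel)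
  have ha : ∀ i < chevD4.rank, ([2, 1, 0, 3] : List ℕ).getD i 0 < chevD4.rank := by decide +kernel
  have hb : ∀ i < chevD4.rank, ([3, 1, 2, 0] : List ℕ).getD i 0 < chevD4.rank := by decide +kernel
  have hab : ∀ i < chevD4.rank, ([3, 1, 2, 0] : List ℕ).getD (([2, 1, 0, 3] : List ℕ).getD i 0) 0 < chevD4.rank := by decide +kernel
  have e : permSols TD4.cert 4 4 = [[0, 1, 2, 3], [0, 1, 3, 2], [2, 1, 0, 3], [2, 1, 3, 0], [3, 1, 0, 2], [3, 1, 2, 0]] := by decide +kernel
  have hone : HasGraph2 TD4.good F (fun i => i) := by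
    refine ⟨1, Subgroup.one_mem _, fun i t => ⟨rfl, rfl⟩⟩
  rw [e] at hL
  simp only [List.mem_cons, List.not_mem_nil, or_false] at hL
  rcases hL with rfl | rfl | rfl | rfl | rfl | rfl
  · exact hone.congr (by decide +kernel)
  · exact ((a.comp b ha).comp a hab).congr (by decide +kernel)
  · exact a
  · exact (a.comp b ha).congr (by decide +kernel)
  · exact (b.comp a hb).congr (by decide +kernel)
  · exact b

def PsetD4 : Set (Equiv.Perm (Fin chevD4.rank)) := {π | ∃ L ∈ permSols TD4.cert 4 4, ∀ i : Fin chevD4.rank, ((π i : Fin chevD4.rank) : ℕ) = L.getD i 0}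

theorem hexD4 : ∀ π ∈ PsetD4, ∃ g ∈ prsAut chevD4 F, TD4.good.IsStd g π (fun _ => 1) (RingEquiv.refl F) := by
  rintro π ⟨L, hL, hπ⟩
  obtain ⟨g, hg, hv⟩ := hasGraph2D4 (F := F) L hL
  have hchk : ∀ L ∈ permSols TD4.cert 4 4, noSwapChk chevD4 L = true := by decide +kernel
  exact ⟨g, hg, TD4.good.isStd_of_noSwap (hchk L hL) hπ hv⟩

theorem hallD4 : ∀ θ ∈ prsAut chevD4 F, ∃ π ∈ PsetD4, ∃ a τ, TD4.good.IsStd θ π a τ := by
  apply TD4.extra.hall_cases TD4.good (F := F) TD4.braid longSD4 (by decide +kernel) (by decide +kernel) (Ls := permSols TD4.cert 4 4) rfl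
  intro L hL θ₁ π a σ ha h1 h2 hπ hstar
  have hchk : ∀ L ∈ permSols TD4.cert 4 4, noSwapChk chevD4 L = true := by decide +kernel
  obtain ⟨_, τ, _, hτ⟩ := TD4.good.input_noswap TD4.conn (by decide +kernel) (hchk L hL) (hasGraphD4 L hL) hπ hstar
  exact ⟨⟨L, hL, hπ⟩, τ, hτ⟩

end

end CfsgLib.Chev
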