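/-
The structure of the outer automorphism group of a Chevalley group.
-/
import Cfsg.Agent.Lib.Chev.OutCount

set_option autoImplicit false

namespace CfsgLib.Chev

open Cfsg Cfsg.Lie Cfsg.Lie.ChevalleyDatum CfsgLib.BN

section

variable {D : ChevalleyDatum} {C : Cert} (hG : Good D C) {F : Type*} [Field F] (hE : Extra D C)

/-- The permutation of the fundamental root subgroups. -/
def Good.HasPerm (hG : Good D C) (θ : ↥(D.group F) ≃* ↥(D.group F)) (π : Equiv.Perm (Fin D.rank)) : Prop :=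
  ∀ i (t : F), ∃ s : F, ((θ (hG.xS (hG.simple_lt i.2) t) : ↥(D.group F)) : GL D.Idx F) = hG.xG (D.simple (π i)) s

include hE in
lemma Good.HasPerm.unique {θ : ↥(D.group F) ≃* ↥(D.group F)} {π π' : Equiv.Perm (Fin D.rank)} (h : hG.HasPerm θ π) (h' : hG.HasPerm θ π') : π = π' := by
  ext i
  obtain ⟨s, hs⟩ := h i (1 : F)
  obtain ⟨s', hs'⟩ := h' i (1 : F)
  have hne : s' ≠ 0 := by
    rintro rfl
    rw [hG.xG_zero] at hs'
    have e1 : θ (hG.xS (hG.simple_lt i.2) (1 : F)) = 1 := Subtype.ext hs'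
    have e2 : hG.xS (hG.simple_lt i.2) (1 : F) = 1 := θ.injective (by rw [e1, map_one])
    have e3 : hG.xG (D.simple i) (1 : F) = hG.xG (D.simple i) 0 := by
      rw [hG.xG_zero]
      exact congrArg Subtype.val e2
    exact one_ne_zero (hE.xG_inj hG (hG.simple_lt i.2) e3)
  have e := hE.xG_root_inj hG (hG.simple_lt (π i).2) (hE.simple_high hG (π' i).2) (hG.simple_lt (π' i).2) hne (hs.symm.trans hs')
  rw [hE.simple_injective hG e]

lemma Good.HasPerm.mul {θ θ' : ↥(D.group F) ≃* ↥(D.group F)} {π π' : Equiv.Perm (Fin D.rank)} (h : hG.HasPerm θ π) (h' : hG.HasPerm θ' π') :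
    hG.HasPerm ((θ : MulAut ↥(D.group F)) * θ') (π * π') := by
  intro i t
  obtain ⟨s, hs⟩ := h' i t
  obtain ⟨s', hs'⟩ := h (π' i) s
  refine ⟨s', ?_⟩
  have e : θ' (hG.xS (hG.simple_lt i.2) t) = hG.xS (hG.simple_lt (π' i).2) s := Subtype.ext hs
  show ((θ (θ' _) : ↥(D.group F)) : GL D.Idx F) = _
  rw [e, hs']
  rfl

lemma Good.IsStd.hasPerm {θ : ↥(D.group F) ≃* ↥(D.group F)} {π : Equiv.Perm (Fin D.rank)} {a : Fin D.rank → Fˣ} {τ : F ≃+* F}
    (h : hG.IsStd θ π a τ) : hG.HasPerm θ π := fun i t => ⟨_, h.1 i t⟩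

include hG hE

/-- The action of a diagonal automorphism on the root elements. -/
lemma Extra.diag_root (hC : ChainStep D) {d : ↥(D.group F) ≃* ↥(D.group F)} (hd : D.IsDiagonalAut d) :
    ∃ χ : ℕ → Fˣ, D.IsRootCharacter χ ∧ ∀ (r : ℕ) (hr : r < D.nroots) (t : F), ((d (hG.xS hr t) : ↥(D.group F)) : GL D.Idx F) = hG.xG r ((χ r : F) * t) := by
  obtain ⟨χ, hχ, h⟩ := hd
  refine ⟨χ, hχ, fun r hr t => ?_⟩
  apply (hG.eq_xG_iff _ _ _).1
  rw [h, ← hG.charDiag_conj hC hχ hr t]
  congr 2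

omit hE in
/-- The action of a field automorphism on the root elements. -/
lemma Good.field_root {f : ↥(D.group F) ≃* ↥(D.group F)} (hf : D.IsFieldAut f) :
    ∃ τ : F ≃+* F, ∀ (r : ℕ) (hr : r < D.nroots) (t : F), f (hG.xS hr t) = hG.xS hr (τ t) := by
  obtain ⟨τ, h⟩ := hf
  refine ⟨τ, fun r hr t => ?_⟩
  apply Subtype.ext
  exact (hG.eq_xG_iff _ _ _).1 (h (hG.xS hr t) r t hr (hG.xG_val _ _))

/-- A diagonal automorphism lies in the group preserving `U` and `V`. -/
lemma Extra.diag_mem_prs [Finite F] (hC : ChainStep D) {d : ↥(D.group F) ≃* ↥(D.group F)} (hd : D.IsDiagonalAut d) : (d : MulAut ↥(D.group F)) ∈ prsAut D F := by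
  obtain ⟨χ, _, h4⟩ := hE.diag_root hG hC hd
  apply hG.mem_prsAut_of_root (θ := d)
  · intro r hr hp t
    rw [h4 r hr]
    exact hG.posUnipotent_mem hp _
  · intro r hr hp t
    rw [h4 r hr]
    exact hG.negUnipotent_mem hp _

omit hE in
/-- A field automorphism lies in the group preserving `U` and `V`. -/
lemma Good.field_mem_prs [Finite F] {f : ↥(D.group F) ≃* ↥(D.group F)} (hf : D.IsFieldAut f) : (f : MulAut ↥(D.group F)) ∈ prsAut D F := by
  obtain ⟨τ, h4⟩ := hG.field_root hf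
  apply hG.mem_prsAut_of_root (θ := f)
  · intro r hr hp t
    rw [h4 r hr]
    exact hG.posUnipotent_mem hp _
  · intro r hr hp t
    rw [h4 r hr]
    exact hG.negUnipotent_mem hp _

/-- Conjugation of a diagonal automorphism by an automorphism in standard form. -/
lemma Extra.std_conj_diag [Finite F] (hC : ChainStep D) {θ d : ↥(D.group F) ≃* ↥(D.group F)} {π : Equiv.Perm (Fin D.rank)} {a : Fin D.rank → Fˣ} {τ : F ≃+* F}
    (h : hG.IsStd θ π a τ) (hd : D.IsDiagonalAut d) :
    ∃ d' : ↥(D.group F) ≃* ↥(D.group F), D.IsDiagonalAut d' ∧ (θ : MulAut ↥(D.group F)) * d = d' * θ := by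
  obtain ⟨χ, hχ, hv⟩ := hE.diag_root hG hC hd
  let c : Fin D.rank → Fˣ := fun i => Units.map (τ : F →* F) (χ (D.simple i)) ^ D.graphExp (ringChar F) i (π i)
  obtain ⟨χ', d', hχ', hχs, hd', hdv⟩ := hE.exists_diag_aut hG hC (fun j => c (π⁻¹ j))
  have hχc : ∀ i, χ' (D.simple (π i)) = c i := by
    intro i
    rw [hχs]
    simp
  have hcv : ∀ i, ((c i : Fˣ) : F) = (τ (χ (D.simple i) : F)) ^ D.graphExp (ringChar F) i (π i) := by
    intro i
    simp [c]
  refine ⟨d', hd', ?_⟩
  apply hE.aut_ext hG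
  · intro i t
    apply Subtype.ext
    show ((θ (d _) : ↥(D.group F)) : GL D.Idx F) = ((d' (θ _) : ↥(D.group F)) : GL D.Idx F)
    have e1 : d (hG.xS (hG.simple_lt i.2) t) = hG.xS (hG.simple_lt i.2) ((χ (D.simple i) : F) * t) := Subtype.ext (hv _ _ t)
    have e2 : θ (hG.xS (hG.simple_lt i.2) t) = hG.xS (hG.simple_lt (π i).2) ((a i : F) * (τ t) ^ D.graphExp (ringChar F) i (π i)) := Subtype.ext (h.1 i t)
    rw [e1, h.1, e2, hdv, hχc, hcv, map_mul, mul_pow]
    congr 1
    ring
  · intro i t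
    apply Subtype.ext
    show ((θ (d _) : ↥(D.group F)) : GL D.Idx F) = ((d' (θ _) : ↥(D.group F)) : GL D.Idx F)
    have e1 : d (hG.xS (hG.shp.neg_lt _ (hG.simple_lt i.2)) t) = hG.xS (hG.shp.neg_lt _ (hG.simple_lt i.2)) (((χ (D.simple i))⁻¹ : Fˣ) * t) := by
      apply Subtype.ext
      rw [hv _ _ t, hχ.1 _ (hG.simple_lt i.2)]
      rfl
    have e2 : θ (hG.xS (hG.shp.neg_lt _ (hG.simple_lt i.2)) t) = hG.xS (hG.shp.neg_lt _ (hG.simple_lt (π i).2)) (((a i)⁻¹ : Fˣ) * (τ t) ^ D.graphExp (ringChar F) i (π i)) := Subtype.ext (h.2 i t)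
    rw [e1, h.2, e2, hdv, hχ'.1 _ (hG.simple_lt (π i).2), hχc, map_mul, mul_pow]
    congr 1
    simp only [Units.val_inv_eq_inv_val, hcv, map_inv₀, inv_pow]
    ring

/-- Diagonal automorphisms commute. -/
lemma Good.diag_comm {d d' : ↥(D.group F) ≃* ↥(D.group F)} (hd : D.IsDiagonalAut d) (hd' : D.IsDiagonalAut d') : (d : MulAut ↥(D.group F)) * d' = d' * d := by
  obtain ⟨χ, _, h⟩ := hd
  obtain ⟨χ', _, h'⟩ := hd'
  have hcomm : ∀ (u v : ℕ → Fˣ), D.charDiag F u * D.charDiag F v = D.charDiag F v * D.charDiag F u := by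
    intro u v
    unfold ChevalleyDatum.charDiag
    rw [Matrix.diagonal_mul_diagonal, Matrix.diagonal_mul_diagonal]
    congr 1
    funext x
    exact mul_comm _ _
  refine MulEquiv.ext fun y => ?_
  apply Subtype.ext
  apply Units.ext
  show ((((d (d' y) : ↥(D.group F)) : GL D.Idx F)) : Matrix D.Idx D.Idx F) = ((((d' (d y) : ↥(D.group F)) : GL D.Idx F)) : Matrix D.Idx D.Idx F)
  rw [h, h', h', h]
  calc D.charDiag F χ * (D.charDiag F χ' * ((y : GL D.Idx F) : Matrix D.Idx D.Idx F) * D.charDiag F fun r => (χ' r)⁻¹) * (D.charDiag F fun r => (χ r)⁻¹)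
      = (D.charDiag F χ * D.charDiag F χ') * ((y : GL D.Idx F) : Matrix D.Idx D.Idx F) * ((D.charDiag F fun r => (χ' r)⁻¹) * (D.charDiag F fun r => (χ r)⁻¹)) := by
        simp only [mul_assoc]
    _ = (D.charDiag F χ' * D.charDiag F χ) * ((y : GL D.Idx F) : Matrix D.Idx D.Idx F) * ((D.charDiag F fun r => (χ r)⁻¹) * (D.charDiag F fun r => (χ' r)⁻¹)) := by
        rw [hcomm χ χ', hcomm (fun r => (χ' r)⁻¹) (fun r => (χ r)⁻¹)]
    _ = _ := by
        simp only [mul_assoc]

/-- The representatives of the outer automorphisms. -/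
lemma Extra.out_surj (hB : Braid D C) (hL : HasLong D C) [Finite F] (y : Out ↥(D.group F)) : ∃ θ ∈ prsAut D F, (QuotientGroup.mk θ : Out ↥(D.group F)) = y := by
  obtain ⟨θ, rfl⟩ := QuotientGroup.mk_surjective y
  obtain ⟨x, θ₁, hx, hU, hV⟩ := hE.exists_normalize hG hB hL θ
  refine ⟨θ₁, ⟨hU, hV⟩, ?_⟩
  have e : θ = MulAut.conj x * θ₁ := by
    refine MulEquiv.ext fun y => ?_
    rw [hx y]
    rfl
  rw [e]
  show (QuotientGroup.mk' (Inn ↥(D.group F))) θ₁ = (QuotientGroup.mk' (Inn ↥(D.group F))) (MulAut.conj x * θ₁)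
  have hc : (QuotientGroup.mk' (Inn ↥(D.group F))) (MulAut.conj x) = 1 := by
    rw [QuotientGroup.mk'_apply]
    exact (QuotientGroup.eq_one_iff _).2 ⟨x, rfl⟩
  rw [map_mul, hc, one_mul]

/-- The homomorphism to the permutations of the nodes. -/
theorem Extra.exists_outPerm (hB : Braid D C) (hL : HasLong D C) [Finite F] (Pset : Set (Equiv.Perm (Fin D.rank)))
    (hall : ∀ θ ∈ prsAut D F, ∃ π ∈ Pset, ∃ a τ, hG.IsStd θ π a τ) :
    ∃ ϖ : Out ↥(D.group F) →* Equiv.Perm (Fin D.rank), ∀ θ ∈ prsAut D F, ∀ π, hG.HasPerm θ π → ϖ (QuotientGroup.mk θ) = π := by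
  classical
  have hex : ∀ θ : ↥(prsAut D F), ∃ π, hG.HasPerm (θ : MulAut ↥(D.group F)) π := by
    intro θ
    obtain ⟨π, _, a, τ, h⟩ := hall θ θ.2
    exact ⟨π, h.hasPerm hG⟩
  choose f hf using hex
  let w : ↥(prsAut D F) →* Equiv.Perm (Fin D.rank) := MonoidHom.mk' f (fun a b => by
    apply (hf (a * b)).unique hG hE
    exact (hf a).mul hG (hf b))
  let q : ↥(prsAut D F) →* Out ↥(D.group F) := (QuotientGroup.mk' (Inn ↥(D.group F))).comp (prsAut D F).subtype
  have hsurj : Function.Surjective q := by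
    intro y
    obtain ⟨θ, hθ, e⟩ := hE.out_surj hG hB hL y
    exact ⟨⟨θ, hθ⟩, e⟩
  have hker : q.ker ≤ w.ker := by
    rintro ⟨θ, hθ⟩ hk
    rw [MonoidHom.mem_ker] at hk ⊢
    obtain ⟨x, hx⟩ := (QuotientGroup.eq_one_iff _).1 hk
    have hx' : MulAut.conj x = θ := hx
    subst hx'
    have hd := hE.mem_diagonal_of_conj hG hB hL hθ
    obtain ⟨d, hd⟩ := hG.mono_of_diagonal hd
    apply (hf ⟨MulAut.conj x, hθ⟩).unique hG hE
    intro i t
    refine ⟨d ⟨_, hG.simple_lt i.2⟩ * t, ?_⟩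
    have := hd.conj ⟨_, hG.simple_lt i.2⟩ t
    simpa using this
  refine ⟨MonoidHom.liftOfSurjective q hsurj ⟨w, hker⟩, fun θ hθ π hπ => ?_⟩
  have e := MonoidHom.liftOfRightInverse_comp_apply q _ (Function.rightInverse_surjInv hsurj) ⟨w, hker⟩ ⟨θ, hθ⟩
  have e' : (QuotientGroup.mk θ : Out ↥(D.group F)) = q ⟨θ, hθ⟩ := rfl
  rw [e', MonoidHom.liftOfSurjective, e]
  exact (hf ⟨θ, hθ⟩).unique hG hE hπ

/-- The structure of the outer automorphism group. -/
theorem Extra.out_structure (hB : Braid D C) (hL : HasLong D C) (hC : ChainStep D) [Finite F] (Pset : Set (Equiv.Perm (Fin D.rank)))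
    (hex : ∀ π ∈ Pset, ∃ g ∈ prsAut D F, hG.IsStd g π (fun _ => 1) (RingEquiv.refl F))
    (hall : ∀ θ ∈ prsAut D F, ∃ π ∈ Pset, ∃ a τ, hG.IsStd θ π a τ)
    (Dbar Fbar : Subgroup (Out ↥(D.group F)))
    (hDbar : Dbar = (Subgroup.closure {φ : MulAut ↥(D.group F) | D.IsDiagonalAut φ}).map (QuotientGroup.mk' (Inn ↥(D.group F))))
    (hFbar : Fbar = (Subgroup.closure {φ : MulAut ↥(D.group F) | D.IsFieldAut φ}).map (QuotientGroup.mk' (Inn ↥(D.group F)))) :
    Dbar.Normal ∧ IsMulCommutative ↥Dbar ∧ IsCyclic ↥Fbar ∧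
      ∃ ϖ : Out ↥(D.group F) →* Equiv.Perm (Fin D.rank), ϖ.ker = Dbar ⊔ Fbar ∧ ∀ π, π ∈ ϖ.range ↔ π ∈ Pset := by
  classical
  obtain ⟨ϖ, hϖ⟩ := hE.exists_outPerm hG hB hL Pset hall
  have hDmem : ∀ φ : MulAut ↥(D.group F), D.IsDiagonalAut φ → (QuotientGroup.mk φ : Out ↥(D.group F)) ∈ Dbar := by
    intro φ hφ
    rw [hDbar]
    exact ⟨φ, Subgroup.subset_closure hφ, rfl⟩
  have hFmem : ∀ φ : MulAut ↥(D.group F), D.IsFieldAut φ → (QuotientGroup.mk φ : Out ↥(D.group F)) ∈ Fbar := by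
    intro φ hφ
    rw [hFbar]
    exact ⟨φ, Subgroup.subset_closure hφ, rfl⟩
  refine ⟨?_, ?_, ?_, ϖ, ?_, ?_⟩
  · -- normality of `D̄`
    constructor
    intro x hx y
    obtain ⟨θ, hθ, rfl⟩ := hE.out_surj hG hB hL y
    obtain ⟨π, _, a, τ, hstd⟩ := hall θ hθ
    rw [hDbar] at hx
    obtain ⟨c, hc, rfl⟩ := hx
    have hK : Subgroup.closure {φ : MulAut ↥(D.group F) | D.IsDiagonalAut φ} ≤
        (Subgroup.closure {φ : MulAut ↥(D.group F) | D.IsDiagonalAut φ}).comap (MulAut.conj θ).toMonoidHom := by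
      apply (Subgroup.closure_le _).2
      intro φ hφ
      obtain ⟨d', hd', e⟩ := hE.std_conj_diag hG hC hstd hφ
      show θ * φ * θ⁻¹ ∈ Subgroup.closure {φ : MulAut ↥(D.group F) | D.IsDiagonalAut φ}
      rw [e, mul_inv_cancel_right]
      exact Subgroup.subset_closure hd'
    rw [hDbar]
    exact ⟨_, hK hc, rfl⟩
  · -- commutativity of `D̄`
    have h1 : IsMulCommutative ↥(Subgroup.closure ((QuotientGroup.mk' (Inn ↥(D.group F))) '' {φ : MulAut ↥(D.group F) | D.IsDiagonalAut φ})) := by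
      apply Subgroup.isMulCommutative_closure
      rintro _ ⟨a, ha, rfl⟩ _ ⟨b, hb, rfl⟩
      rw [← map_mul, ← map_mul, hG.diag_comm hE ha hb]
    rw [hDbar, MonoidHom.map_closure]
    exact h1
  · -- `F̄` is cyclic
    rw [hFbar]
    choose Fa hFa hFa2 hFa3 using fun τ : F ≃+* F => hG.exists_field_prs τ
    let Φ : RingAut F →* Out ↥(D.group F) :=
      { toFun := fun τ => QuotientGroup.mk (Fa τ)
        map_one' := by
          apply (QuotientGroup.eq_one_iff _).2
          have : Fa (1 : RingAut F) = (1 : MulAut ↥(D.group F)) := by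
            apply hE.aut_ext hG
            · intro i t
              rw [hFa3]
              rfl
            · intro i t
              rw [hFa3]
              rfl
          rw [this]
          exact Subgroup.one_mem _
        map_mul' := by
          intro τ τ'
          have : Fa (τ * τ') = (Fa τ : MulAut ↥(D.group F)) * Fa τ' := by
            apply hE.aut_ext hG
            · intro i t
              show _ = Fa τ (Fa τ' _)
              rw [hFa3, hFa3, hFa3]
              rfl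
            · intro i t
              show _ = Fa τ (Fa τ' _)
              rw [hFa3, hFa3, hFa3]
              rfl
          rw [this]
          rfl }
    have hcyc : IsCyclic (RingAut F) := by
      obtain ⟨p, hp⟩ := CharP.exists F
      haveI : Fact p.Prime := ⟨(CharP.char_is_prime_or_zero F p).resolve_right (fun h => by
        subst h
        exact CharP.char_ne_zero_of_finite F 0 rfl)⟩
      haveI : Algebra (ZMod p) F := ZMod.algebra F p
      let r : Gal(F/ZMod p) →* RingAut F :=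
        { toFun := fun σ => σ.toRingEquiv
          map_one' := rfl
          map_mul' := fun _ _ => rfl }
      have hr : Function.Surjective r := by
        intro σ
        refine ⟨AlgEquiv.ofRingEquiv (f := σ) (fun u => ?_), ?_⟩
        · have e : (σ : F →+* F).comp (algebraMap (ZMod p) F) = algebraMap (ZMod p) F := Subsingleton.elim _ _
          exact congrArg (fun z : ZMod p →+* F => z u) e
        · ext x
          rfl
      exact isCyclic_of_surjective r hr
    have hrange : (Subgroup.closure {φ : MulAut ↥(D.group F) | D.IsFieldAut φ}).map (QuotientGroup.mk' (Inn ↥(D.group F))) = Φ.range := by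
      apply le_antisymm
      · rw [Subgroup.map_le_iff_le_comap]
        apply (Subgroup.closure_le _).2
        intro φ hφ
        obtain ⟨τ, hτ⟩ := hG.field_root hφ
        have : φ = Fa τ := by
          apply hE.aut_ext hG
          · intro i t
            rw [hτ, hFa3]
          · intro i t
            rw [hτ, hFa3]
        exact ⟨τ, by rw [this]; rfl⟩
      · rintro _ ⟨τ, rfl⟩
        exact ⟨Fa τ, Subgroup.subset_closure (hFa2 τ), rfl⟩
    rw [hrange]
    exact isCyclic_of_surjective Φ.rangeRestrict Φ.rangeRestrict_surjective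
  · -- the kernel
    apply le_antisymm
    · intro y hy
      obtain ⟨θ, hθ, rfl⟩ := hE.out_surj hG hB hL y
      obtain ⟨π, _, a, τ, hstd⟩ := hall θ hθ
      have hπ1 : π = 1 := by
        have := hϖ θ hθ π (hstd.hasPerm hG)
        rw [← this]
        exact hy
      subst hπ1
      obtain ⟨χ, d, hd, hχ, hχs, hdd, hdv⟩ := hE.exists_diag_prs hG hC a
      obtain ⟨f, hf, hff, hfv⟩ := hG.exists_field_prs τ
      have hexp : ∀ i : ℕ, D.graphExp (ringChar F) i i = 1 := by
        intro i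
        unfold ChevalleyDatum.graphExp
        simp
      have e : θ = (d : MulAut ↥(D.group F)) * f := by
        apply hE.aut_ext hG
        · intro i t
          apply Subtype.ext
          rw [hstd.1]
          show _ = ((d (f _) : ↥(D.group F)) : GL D.Idx F)
          rw [hfv, hdv, hχs]
          simp [hexp]
        · intro i t
          apply Subtype.ext
          rw [hstd.2]
          show _ = ((d (f _) : ↥(D.group F)) : GL D.Idx F)
          rw [hfv, hdv, hχ.1 _ (hG.simple_lt i.2), hχs]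
          simp [hexp]
      rw [e]
      exact Subgroup.mul_mem_sup (hDmem d hdd) (hFmem f hff)
    · refine sup_le ?_ ?_
      · rw [hDbar, Subgroup.map_le_iff_le_comap]
        apply (Subgroup.closure_le _).2
        intro φ hφ
        have hmem := hE.diag_mem_prs hG hC hφ
        obtain ⟨χ, _, hv⟩ := hE.diag_root hG hC hφ
        have : hG.HasPerm φ 1 := fun i t => ⟨_, hv _ _ t⟩
        have e := hϖ φ hmem 1 this
        exact e
      · rw [hFbar, Subgroup.map_le_iff_le_comap]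
        apply (Subgroup.closure_le _).2
        intro φ hφ
        have hmem := hG.field_mem_prs hφ
        obtain ⟨τ, hv⟩ := hG.field_root hφ
        have : hG.HasPerm φ 1 := fun i t => ⟨τ t, congrArg Subtype.val (hv _ _ t)⟩
        have e := hϖ φ hmem 1 this
        exact e
  · intro π
    constructor
    · rintro ⟨y, rfl⟩
      obtain ⟨θ, hθ, rfl⟩ := hE.out_surj hG hB hL y
      obtain ⟨π, hπ, a, τ, hstd⟩ := hall θ hθ
      rw [hϖ θ hθ π (hstd.hasPerm hG)]
      exact hπ
    · intro hπ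
      obtain ⟨g, hg, hstd⟩ := hex π hπ
      exact ⟨_, hϖ g hg π (hstd.hasPerm hG)⟩

end

end CfsgLib.Chev
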