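/-
The structure of the outer automorphism groups: the individual types.
-/
import Cfsg.Agent.Lib.Chev.OutAll
import Cfsg.Agent.Lib.Chev.OutStruct

set_option autoImplicit false
set_option maxRecDepth 100000

namespace CfsgLib.Chev

open Cfsg Cfsg.Lie Cfsg.Lie.ChevalleyDatum

lemma out_final {G P : Type*} [Group G] [Group P] (Dbar Fbar : Subgroup G) (ϖ : G →* P) (hk : ϖ.ker = Dbar ⊔ Fbar) {Pset : Set P}
    (hr : ∀ π, π ∈ ϖ.range ↔ π ∈ Pset) : (Dbar ⊔ Fbar).Normal ∧ (Dbar ⊔ Fbar).index = Nat.card Pset := by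
  rw [← hk]
  refine ⟨inferInstance, ?_⟩
  rw [Subgroup.index_ker]
  exact Nat.card_congr (Equiv.subtypeEquivRight hr)

lemma card_pset2 {P : Type*} [Group P] (c : Prop) (s : P) (hs : 1 ≠ s) :
    Nat.card {π : P | π = 1 ∨ (c ∧ π = s)} = 1 ∨ Nat.card {π : P | π = 1 ∨ (c ∧ π = s)} = 2 := by
  by_cases hc : c
  · right
    have e : {π : P | π = 1 ∨ (c ∧ π = s)} = {1, s} := by
      ext π
      simp [hc]
    rw [e, Nat.card_coe_set_eq, Set.ncard_pair hs]
  · left
    have e : {π : P | π = 1 ∨ (c ∧ π = s)} = {1} := by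
      ext π
      simp [hc]
    rw [e, Nat.card_coe_set_eq, Set.ncard_singleton]

def lsD4 : List (List ℕ) := [[0, 1, 2, 3], [0, 1, 3, 2], [2, 1, 0, 3], [2, 1, 3, 0], [3, 1, 0, 2], [3, 1, 2, 0]]

theorem lsD4_eq : permSols TD4.cert 4 4 = lsD4 := by decide +kernel

theorem lsD4_perm : ∀ i : Fin 6, (∀ k < chevD4.rank, (lsD4.getD i []).getD k 0 < chevD4.rank) ∧ ∀ k < chevD4.rank, ∀ j < chevD4.rank, (lsD4.getD i []).getD k 0 = (lsD4.getD i []).getD j 0 → k = j := by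
  decide +kernel

theorem lsD4_inj : ∀ i j : Fin 6, (∀ k < chevD4.rank, (lsD4.getD i []).getD k 0 = (lsD4.getD j []).getD k 0) → i = j := by
  decide +kernel

theorem lsD4_all : ∀ L ∈ lsD4, ∃ i : Fin 6, lsD4.getD i [] = L := by
  decide +kernel

theorem card_psetD4 : Nat.card ↥PsetD4 = 6 := by
  let f : Fin 6 → Equiv.Perm (Fin chevD4.rank) := fun i => listPerm chevD4.rank (lsD4.getD i []) (lsD4_perm i)
  have hf : Function.Injective f := by
    intro i j e
    apply lsD4_inj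
    intro k hk
    have := congrArg (fun π : Equiv.Perm (Fin chevD4.rank) => ((π ⟨k, hk⟩ : Fin chevD4.rank) : ℕ)) e
    simpa [f] using this
  have hr : Set.range f = PsetD4 := by
    ext π
    constructor
    · rintro ⟨i, rfl⟩
      refine ⟨lsD4.getD i [], ?_, fun k => rfl⟩
      rw [lsD4_eq]
      have h : ∀ i : Fin 6, lsD4.getD i [] ∈ lsD4 := by decide +kernel
      exact h i
    · rintro ⟨L, hL, hπ⟩
      rw [lsD4_eq] at hL
      obtain ⟨i, rfl⟩ := lsD4_all L hL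
      exact ⟨i, (eq_listPerm hπ).symm⟩
  rw [← hr, Nat.card_range_of_injective hf]
  simp

noncomputable def aD4 : Equiv.Perm (Fin chevD4.rank) := listPerm chevD4.rank [2, 1, 0, 3] (by decide +kernel)
noncomputable def bD4 : Equiv.Perm (Fin chevD4.rank) := listPerm chevD4.rank [3, 1, 2, 0] (by decide +kernel)

theorem aD4_mem : aD4 ∈ PsetD4 := ⟨[2, 1, 0, 3], by rw [lsD4_eq]; decide +kernel, fun _ => rfl⟩
theorem bD4_mem : bD4 ∈ PsetD4 := ⟨[3, 1, 2, 0], by rw [lsD4_eq]; decide +kernel, fun _ => rfl⟩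

theorem aD4_bD4 : aD4 * bD4 ≠ bD4 * aD4 := by
  intro e
  have h := congrArg (fun π : Equiv.Perm (Fin chevD4.rank) => ((π ⟨0, by decide⟩ : Fin chevD4.rank) : ℕ)) e
  have h1 : ((aD4 * bD4) ⟨0, by decide⟩ : Fin chevD4.rank).val = 3 := rfl
  have h2 : ((bD4 * aD4) ⟨0, by decide⟩ : Fin chevD4.rank).val = 2 := rfl
  simp only [h1, h2] at h
  omega

end CfsgLib.Chev
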